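import Cfsg.Agent.SBM.Defs

set_option autoImplicit false

namespace Cfsg.Agent.SBM

open Subgroup STD

variable {X G : Type*} [Group X] [Group G] [Finite G] {t z : X} {P : Subgroup X} {φ : X →* G}

namespace A1a

/-- a `2`-subgroup is conjugate into every subgroup of odd index -/
theorem conj_le [Finite X] {C R : Subgroup X} (hC : ¬ 2 ∣ C.index) (hR : IsPGroup 2 R) :
    ∃ c, ∀ r ∈ R, c * r * c⁻¹ ∈ C := by
  haveI : Fact (Nat.Prime 2) := ⟨Nat.prime_two⟩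
  obtain ⟨S⟩ := (inferInstance : Nonempty (Sylow 2 C))
  have h1 : ¬ 2 ∣ ((S : Subgroup C).map C.subtype).index := by
    rw [index_map_subtype, Nat.prime_two.dvd_mul]
    exact not_or.2 ⟨S.not_dvd_index, hC⟩
  obtain ⟨T, hT⟩ := hR.exists_le_sylow
  obtain ⟨c, hc⟩ := MulAction.exists_smul_eq X T ((S.2.map C.subtype).toSylow h1)
  refine ⟨c, fun r hr => map_subtype_le (S : Subgroup C) ?_⟩
  have h2 : c * r * c⁻¹ ∈ ((c • T : Sylow 2 X) : Subgroup X) := by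
    rw [Sylow.coe_subgroup_smul]
    exact smul_mem_pointwise_smul _ (MulAut.conj c) _ (hT hr)
  rwa [hc] at h2

theorem conj_comm [Finite X] (x : XF t z P) {b : X} (hb : b ^ 4 = 1) :
    ∃ c, Commute (c * b * c⁻¹) z := by
  obtain ⟨c, hc⟩ := conj_le x.odd (R := zpowers b) fun a => ⟨2, Subtype.ext (by
    obtain ⟨n, hn⟩ := a.2
    change (a : X) ^ 4 = 1
    rw [← hn, ← zpow_natCast, ← zpow_mul, mul_comm, zpow_mul, zpow_natCast, hb, one_zpow])⟩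
  exact ⟨c, mem_centralizer_singleton_iff.1 (hc b (mem_zpowers b))⟩

/-- the projection of `D` to `X` along `K` -/
def pj (φ : X →* G) (D : Subgroup G) : Subgroup X where
  carrier := {a | ∃ k ∈ KK φ, φ a * k ∈ D}
  one_mem' := ⟨1, one_mem _, by simp⟩
  mul_mem' := fun {a b} ⟨k, hk, e⟩ ⟨l, hl, e'⟩ => ⟨k * l, mul_mem hk hl, by
    have := mul_mem e e'
    rwa [mul_assoc, ← mul_assoc k, (hk b).eq, mul_assoc, ← mul_assoc, ← map_mul] at this⟩
  inv_mem' := fun {a} ⟨k, hk, e⟩ => ⟨k⁻¹, inv_mem hk, by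
    have := inv_mem e
    rwa [← (hk a).eq, mul_inv_rev, ← map_inv] at this⟩

omit [Finite G] in
/-- normal form of the failure of `NoZ` -/
theorem exists_g (x : XF t z P) (h : IS t φ) (hn : ¬ NoZ t z φ) :
    ∃ g, ∃ k ∈ KK φ, g * φ t * g⁻¹ = φ z * k ∧ Commute (g * φ t * g⁻¹) (φ t) ∧ g * φ t * g⁻¹ ≠ φ t := by
  simp only [NoZ, not_forall, not_not] at hn
  obtain ⟨g, w, hw, k, hk, e⟩ := hn
  obtain ⟨l, rfl⟩ := isConj_iff.1 hw
  have e1 : (φ l)⁻¹ * g * φ t * ((φ l)⁻¹ * g)⁻¹ = φ z * k := by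
    calc _ = (φ l)⁻¹ * (g * φ t * g⁻¹) * φ l := by group
      _ = φ z * ((φ l)⁻¹ * (k * φ l)) := by rw [e]; simp only [map_mul, map_inv]; group
      _ = _ := by rw [(hk l).eq, inv_mul_cancel_left]
  refine ⟨_, k, hk, e1, e1 ▸ (h.cz z).mul_left (hk t), fun e2 => ?_⟩
  rcases h.of_mem (a := z⁻¹ * t) (by rwa [map_mul, map_inv, ← e2, e1, inv_mul_cancel_left]) with e3 | e3
  · exact x.zt (inv_mul_eq_one.1 e3)
  · exact x.z1 (inv_eq_one.1 (mul_eq_right.1 e3))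

omit [Finite G] in
theorem main (x : XF t z P) {ψ : X →* G} (p : IP t φ ψ) {b : X} {k k' : G} (hk : k ∈ KK φ)
    (hk' : k' ∈ KK ψ) (e : ψ t = φ z * k) (e' : φ t = ψ b * k') (bz : Commute b z)
    {l : G} (hl : l ∈ KK ψ) (lt : Commute l (φ t)) : l ∈ KK φ ∨ l * ψ t ∈ KK φ := by
  have h := p.l
  have mc {y : G} : y ∈ centralizer {φ t} ↔ Commute y (φ t) := mem_centralizer_singleton_iff
  have c1 {D : Subgroup G} (hD : ∀ d ∈ D, Commute d (ψ t)) : ∀ u ∈ pj φ D, Commute u z := by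
    rintro u ⟨m, hm, hu⟩
    rcases h.comm_or hk hm (e ▸ (hD _ hu).symm) with e1 | e1
    · exact mul_inv_eq_iff_eq_mul.1 e1
    · exact absurd (isConj_iff.2 ⟨u, e1⟩) x.nzt
  have c2 {D : Subgroup G} (hD : ∀ g, Commute g (ψ t) → ∀ d ∈ D, g * d * g⁻¹ ∈ D) (a : X)
      (ha : Commute a z) : ∀ u ∈ pj φ (D ⊓ centralizer {φ t}), a * u * a⁻¹ ∈ pj φ (D ⊓ centralizer {φ t}) := by
    rintro u ⟨m, hm, hu⟩
    have e1 : φ (a * u * a⁻¹) * m = φ a * (φ u * m) * (φ a)⁻¹ := by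
      simp only [map_mul, map_inv, mul_assoc, (hm a).inv_right.eq]
    refine ⟨m, hm, e1 ▸ mem_inf.2 ⟨hD _ (p.comm_t hk e ha) _ hu.1, ?_⟩⟩
    exact mul_mem (mul_mem (mc.2 (h.cz a)) hu.2) (inv_mem (mc.2 (h.cz a)))
  have c3 {D : Subgroup G} (hD : ∀ u ∈ pj φ D, u = 1 ∨ u = t ∨ u = z ∨ u = z * t) {d : G} (hd : d ∈ D)
      (dt : Commute d (φ t)) : d ∈ KK φ ∨ d * ψ t ∈ KK φ := by
    obtain ⟨u, m, hm, rfl⟩ := h.dec dt
    have e1 : φ u * m * ψ t = φ (u * z) * (m * k) := by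
      rw [e, map_mul, mul_assoc, mul_assoc, ← mul_assoc m, (hm z).eq, mul_assoc]
    rw [e1]
    rcases hD u ⟨m, hm, hd⟩ with rfl | rfl | rfl | rfl
    · exact .inl (by simpa using hm)
    · exact .inl (mul_mem h.z_mem hm)
    · exact .inr (by simpa [x.z2] using mul_mem hm hk)
    · refine .inr (mul_mem ?_ (mul_mem hm hk))
      rw [mul_assoc, (h.z_comm z).eq, ← mul_assoc, x.z2, one_mul]
      exact h.z_mem
  have c4 {c : X} (hc : Commute c b) : Commute (ψ c) (φ t) := p.symm.comm_t hk' e' hc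
  rcases x.x1 (pj φ (ψ.range ⊓ centralizer {φ t})) (pj φ (KK ψ ⊓ centralizer {φ t}))
    (c1 (by rintro _ ⟨⟨c, rfl⟩, -⟩; exact p.r.cz c)) (c1 fun d hd => hd.1 t)
    (c2 (by rintro g hg _ ⟨c, rfl⟩; exact p.r.norm hg c)) (c2 fun g hg d hd => p.r.normK hg hd)
    (by
      rintro u ⟨m, hm, ⟨c, hc⟩, -⟩ w ⟨n, hn, hw, -⟩
      exact h.comm_or hm hn (hc ▸ (hw c).symm))
    (fun a ha => by
      obtain ⟨c, k1, h1, e1⟩ := p.r.dec (p.comm_t hk e ha)
      have cb : Commute (c * c) b := by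
        refine mul_inv_eq_iff_eq_mul.1 ?_
        have e2 : c * c * b * (c * c)⁻¹ = c * (c * b * c⁻¹) * c⁻¹ := by group
        rcases p.r.comm_or hk' h1 (e1 ▸ e' ▸ (h.cz a).symm) with e3 | e3
        · rw [e2, e3, e3]
        · rw [e2, e3, ← mul_assoc, mul_assoc (c * b), (h.z_comm c⁻¹).eq, ← mul_assoc, e3, mul_assoc, h.sq,
            mul_one]
      have e2 : φ (a * a) = ψ (c * c) * (k1 * k1) := by
        rw [map_mul, map_mul, e1, mul_assoc, ← mul_assoc k1, (h1 c).eq, mul_assoc, mul_assoc]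
      have k2 : Commute (k1 * k1) (φ t) := by
        have := (c4 cb).inv_left.mul_left (e2 ▸ h.cz (a * a))
        rwa [inv_mul_cancel_left] at this
      obtain ⟨u, m, hm, e3⟩ := h.dec (c4 cb)
      obtain ⟨w, n, hn, e4⟩ := h.dec k2
      have hu : u ∈ pj φ (ψ.range ⊓ centralizer {φ t}) := ⟨m, hm, e3 ▸ ⟨⟨_, rfl⟩, mc.2 (c4 cb)⟩⟩
      have hw : w ∈ pj φ (KK ψ ⊓ centralizer {φ t}) := ⟨n, hn, e4 ▸ ⟨mul_mem h1 h1, mc.2 k2⟩⟩
      rcases h.of_mem (a := (u * w)⁻¹ * (a * a)) (by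
        rw [map_mul, e2, e3, e4, mul_assoc, ← mul_assoc m, (hm w).eq, mul_assoc, ← mul_assoc (φ u),
          ← map_mul, map_inv, inv_mul_cancel_left]
        exact mul_mem hm hn) with e5 | e5
      · exact ⟨u, hu, w, hw, (inv_mul_eq_one.1 e5).symm⟩
      · exact ⟨u, hu, w * t, mul_mem hw ⟨φ t, h.z_mem, h.sq' ▸ one_mem _⟩,
          (inv_mul_eq_iff_eq_mul.1 e5).trans (mul_assoc _ _ _)⟩) with hU | hW
  · exfalso
    have d1 {c : X} (hc : Commute c b) : ψ c ∈ KK φ ∨ ψ (c * t) ∈ KK φ :=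
      map_mul ψ c t ▸ c3 hU ⟨⟨_, rfl⟩, mc.2 (c4 hc)⟩ (c4 hc)
    have d2 {c : X} (hc : Commute c z) : Commute c b := by
      have d3 {j : X} (j2 : j * j = 1) (j1 : j ≠ 1) (hj : ψ j ∈ KK φ) (cj : Commute c j) : Commute c b := by
        have := (e' ▸ h.tight (by rw [← map_mul, j2, map_one]) (fun e => j1 (p.r.inj (e.trans
          (map_one ψ).symm))) hj (cj.map ψ)).mul_right (hk' c).symm.inv_right
        exact p.r.inj (by simpa using this.eq)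
      rcases d1 bz.symm with e1 | e1
      · exact d3 x.z2 x.z1 e1 hc
      · refine d3 ?_ (fun e => x.zt ?_) e1 (hc.mul_right (h.z_comm c).symm)
        · rw [mul_assoc, ← mul_assoc t, (h.z_comm z).eq, mul_assoc, h.sq, mul_one, x.z2]
        · rw [← mul_one z, ← h.sq, ← mul_assoc, e, one_mul]
    obtain ⟨a, c, ha, hc, e1⟩ := x.swap
    have d4 {a' c' : X} (ha : a' = a ∨ a' = a * t) (hc : c' = c ∨ c' = c * t) (h1 : ψ a' ∈ KK φ)
        (h2 : ψ c' ∈ KK φ) : False := by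
      have e2 : a' * c' * a'⁻¹ * c'⁻¹ = t := by
        have e3 : a' * c' * a'⁻¹ = a * c' * a⁻¹ := by
          rcases ha with rfl | rfl
          · rfl
          · rw [mul_assoc a, (h.z_comm c').eq]; group
        rw [e3]
        rcases hc with rfl | rfl
        · rw [e1, mul_assoc, (h.z_comm _).eq, mul_inv_cancel_left]
        · rw [← mul_assoc, mul_assoc (a * c), (h.z_comm a⁻¹).eq, ← mul_assoc, e1, mul_assoc (c * t),
            (h.z_comm _).eq, mul_inv_cancel_left]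
      refine p.nl ?_
      rw [← e2, map_mul, map_mul, map_mul, map_inv, map_inv]
      exact mul_mem (mul_mem (mul_mem h1 h2) (inv_mem h1)) (inv_mem h2)
    rcases d1 (d2 ha) with h1 | h1 <;> rcases d1 (d2 hc) with h2 | h2
    exacts [d4 (.inl rfl) (.inl rfl) h1 h2, d4 (.inl rfl) (.inr rfl) h1 h2,
      d4 (.inr rfl) (.inl rfl) h1 h2, d4 (.inr rfl) (.inr rfl) h1 h2]
  · exact c3 hW ⟨hl, mc.2 lt⟩ lt

end A1a

theorem a1a (x : XF t z P) (h : IS t φ)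
    (hbal : ∀ s : G, orderOf s = 2 → centralizerPPrimeCore 2 s = ⊥) (hn : ¬ NoZ t z φ) :
    centralizer {φ t} = φ.range := by
  haveI : Finite X := .of_injective _ h.inj
  obtain ⟨g0, k, hk, e0, c0, n0⟩ := A1a.exists_g x h hn
  obtain ⟨b0, b2, -, -, k', hk', e0'⟩ := (h.ip c0 n0).symm.dec
  obtain ⟨c, hc⟩ := A1a.conj_comm x (b := b0) (by
    rw [show 4 = 2 * 2 from rfl, pow_mul, pow_two b0]
    rcases b2 with e | e <;> rw [e, pow_two]
    exacts [one_mul 1, h.sq])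
  have e1 : g0 * φ c⁻¹ * φ t * (g0 * φ c⁻¹)⁻¹ = g0 * φ t * g0⁻¹ := by
    rw [mul_assoc g0, (h.cz c⁻¹).eq]; group
  have p := h.ip (g := g0 * φ c⁻¹) (e1 ▸ c0) (e1 ▸ n0)
  generalize hψ : (MulAut.conj (g0 * φ c⁻¹)).toMonoidHom.comp φ = ψ at p
  have e2 (a : X) : ψ a = g0 * φ (c⁻¹ * a * c) * g0⁻¹ := by
    rw [← hψ]; simp [mul_assoc]
  have e3 : ψ t = φ z * k := by rw [← e0, ← e1, ← hψ]; rfl
  have e4 : φ t = ψ (c * b0 * c⁻¹) * k' := by rw [e2, e0']; simp [mul_assoc]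
  have hk2 : k' ∈ KK ψ := fun a => e2 a ▸ hk' _
  generalize c * b0 * c⁻¹ = b at hc e4
  have m := @A1a.main _ _ _ _ _ _ _ _ x _ p _ _ _ hk hk2 e3 e4 hc
  have k4 : k' ^ 4 = 1 := by
    have e5 : ψ (b * b) * k' ^ 2 = 1 := by
      rw [← h.sq', e4, map_mul, ← pow_two, ← pow_two, (hk2 b).symm.mul_pow]
    have e6 : ψ (b * b) ∈ KK ψ := eq_inv_of_mul_eq_one_left e5 ▸ inv_mem (pow_mem hk2 2)
    rw [show 4 = 2 * 2 from rfl, pow_mul, eq_inv_of_mul_eq_one_right e5, inv_pow, inv_eq_one, pow_two]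
    rcases p.r.of_mem e6 with e | e <;> rw [e]
    exacts [by simp, p.r.sq']
  have o {l : G} (h1 : l ∈ KK φ) (h2 : l ∈ KK ψ) (l4 : l ^ 4 = 1) : l = 1 :=
    orderOf_eq_one_iff.1 (Nat.eq_one_of_dvd_coprimes
      ((Nat.coprime_two_right.2 (p.odd h1 h2)).pow_right 2) dvd_rfl (orderOf_dvd_of_pow_eq_one l4))
  have r : φ t ∈ ψ.range := by
    rcases m hk2 (e4 ▸ (hk2 b).mul_right (.refl _)) with e | e
    · exact ⟨b, by rw [e4, o e hk2 k4, mul_one]⟩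
    · refine ⟨b * t⁻¹, ?_⟩
      rw [e4, map_mul, map_inv, eq_inv_of_mul_eq_one_left (o e (mul_mem hk2 p.r.z_mem) ?_)]
      rw [(hk2 t).mul_pow, k4, one_mul, show 4 = 2 * 2 from rfl, pow_mul, pow_two (ψ t), p.r.sq', one_pow]
  obtain ⟨b', hb'⟩ := r
  have f := p.symm.cent_eq (fun l hl => m hl (hb' ▸ hl b')) (hbal _ p.r.ord)
  refine le_antisymm (fun y hy => ?_) ?_
  · have : g0 * y * g0⁻¹ ∈ ψ.range := f ▸ mem_centralizer_singleton_iff.2 (by
      rw [e3, ← e0]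
      exact ((show Commute y (φ t) from mem_centralizer_singleton_iff.1 hy).map (MulAut.conj g0)).eq)
    obtain ⟨a, ha⟩ := this
    exact ⟨c⁻¹ * a * c, by simpa [e2] using ha⟩
  · rintro _ ⟨a, rfl⟩
    exact mem_centralizer_singleton_iff.2 (h.cz a)

end Cfsg.Agent.SBM
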