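import Cfsg.Agent.SBM.Defs
import Cfsg.Agent.SBM.A1a

set_option autoImplicit false

namespace Cfsg.Agent.SBM

open Subgroup STD

variable {X G : Type*} [Group X] [Group G] [Finite G] {t z : X} {P : Subgroup X} {φ : X →* G}

namespace A1b

theorem adj (x : XF t z P) (h : IS t φ) (hC : centralizer {φ t} = φ.range) {g : G} {v : X}
    (e : g * φ t * g⁻¹ = φ v) (hv : v = z ∨ v = z * t) :
    ∃ g : G, g * φ t * g⁻¹ = φ v ∧ (g * φ z * g⁻¹ = φ t ∨ g * φ (z * t) * g⁻¹ = φ t) := by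
  haveI : Finite X := .of_injective _ h.inj
  have dec {y : G} (hy : Commute y (φ t)) : ∃ a, φ a = y :=
    (hC ▸ mem_centralizer_singleton_iff.2 hy : y ∈ φ.range)
  have tr {y u : G} (hy : Commute y (g * u * g⁻¹)) : Commute (g⁻¹ * y * g) u := by
    simpa [mul_assoc] using hy.map (MulAut.conj g⁻¹)
  obtain ⟨b, hb⟩ := dec (tr (e ▸ (h.cz v).symm))
  have h1 : ((centralizer {z}).map φ).map (MulAut.conj g⁻¹).toMonoidHom ≤ (centralizer {b}).map φ := by
    rintro _ ⟨_, ⟨a, ha, rfl⟩, rfl⟩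
    have ha : Commute a z := mem_centralizer_singleton_iff.1 ha
    obtain ⟨a', ha'⟩ := dec (y := g⁻¹ * φ a * g) (tr (e ▸ Commute.map (by
      rcases hv with rfl | rfl
      exacts [ha, ha.mul_right (h.z_comm a).symm]) φ))
    refine ⟨a', mem_centralizer_singleton_iff.2 (h.inj ?_), by simpa using ha'⟩
    rw [map_mul, map_mul, ha', hb]
    simpa [mul_assoc] using ((h.cz a).map (MulAut.conj g⁻¹)).eq
  have h2 := card_dvd_of_le h1
  rw [card_map_of_injective (MulAut.conj g⁻¹).injective, card_map_of_injective h.inj,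
    card_map_of_injective h.inj] at h2
  have h3 : ¬ 2 ∣ (centralizer ({b} : Set X)).index := fun e => x.odd (e.trans (by
    obtain ⟨m, hm⟩ := h2
    refine ⟨m, Nat.eq_of_mul_eq_mul_left (Nat.card_pos (α := centralizer ({z} : Set X))) ?_⟩
    rw [card_mul_index, mul_comm _ m, ← mul_assoc, ← hm, card_mul_index]))
  obtain ⟨c, hc⟩ := A1a.conj_le h3 (R := P) fun p => ⟨2, Subtype.ext (by
    change (p : X) ^ (2 * 2) = 1
    rw [pow_mul, pow_two (p : X)]
    rcases x.sP p p.2 with e | e <;> rw [e, pow_two]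
    exacts [one_mul 1, x.z2])⟩
  have e1 : g * φ c * φ t * (g * φ c)⁻¹ = φ v := by rw [mul_assoc g, (h.cz c).eq, ← e]; group
  have e2 : g * φ c * φ (c⁻¹ * b * c) * (g * φ c)⁻¹ = φ t := by
    rw [map_mul, map_mul, hb, map_inv]; group
  refine ⟨g * φ c, e1, ?_⟩
  rcases x.V (c⁻¹ * b * c) (fun p hp => by
    simpa [mul_assoc] using (show Commute (c * p * c⁻¹) b from
      mem_centralizer_singleton_iff.1 (hc p hp)).symm.map (MulAut.conj c⁻¹)) with e3 | e3 | e3 | e3 <;>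
    rw [e3] at e2
  · exact absurd (h.inj (by simpa using e2.symm)) h.ne
  · rcases hv with rfl | rfl
    · exact absurd (h.inj (e1.symm.trans e2)) x.zt
    · exact absurd (mul_eq_right.1 (h.inj (e1.symm.trans e2))) x.z1
  exacts [.inl e2, .inr e2]

omit [Finite G] in
theorem no (x : XF t z P) (h : IS t φ) (hC : centralizer {φ t} = φ.range) {g : G}
    (e : g * φ t * g⁻¹ = φ z) (e' : g * φ z * g⁻¹ = φ t ∨ g * φ (z * t) * g⁻¹ = φ t) : False := by
  have dec {y : G} (hy : Commute y (φ t)) : ∃ a, φ a = y :=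
    (hC ▸ mem_centralizer_singleton_iff.2 hy : y ∈ φ.range)
  let ψ := (MulAut.conj g).toMonoidHom.comp φ
  have inj : Function.Injective ψ := (MulAut.conj g).injective.comp h.inj
  have e1 : ψ t = φ z := e
  have k1 {a : X} : Commute (ψ a) (φ t) ↔ Commute a z := by
    rcases e' with e' | e'
    · exact ⟨fun k => inj (by rw [map_mul, map_mul, show ψ z = φ t from e', k.eq]),
        fun k => e' ▸ k.map ψ⟩
    · refine ⟨fun k => ?_, fun k => e' ▸ (k.mul_right (h.z_comm a).symm).map ψ⟩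
      have : Commute a (z * t) := inj (by rw [map_mul, map_mul _ (z * t), show ψ (z * t) = φ t from e', k.eq])
      simpa using this.mul_right (h.z_comm a).symm.inv_right
  have k2 : (P.map φ).comap ψ ≤ P := by
    refine x.O2 _ (fun p => ⟨2, Subtype.ext (inj ?_)⟩) ?_ ?_
    · obtain ⟨q, hq, e2⟩ := p.2
      change ψ ((p : X) ^ (2 * 2)) = ψ 1
      rw [map_pow, ← e2, ← map_pow, pow_mul, pow_two q, map_one]
      rcases x.sP q hq with e | e <;> rw [e, pow_two]
      exacts [by simp, by rw [x.z2, map_one]]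
    · rintro n ⟨q, -, e2⟩
      exact k1.1 (e2 ▸ h.cz q)
    · rintro a ha n ⟨q, hq, e2⟩
      obtain ⟨a', ha'⟩ := dec (k1.2 ha)
      refine ⟨_, x.nP a' (h.inj ?_) q hq, by simp only [map_mul, map_inv, ha', e2]⟩
      rw [map_mul, map_mul, ha', ← e1]
      exact ((h.z_comm a).symm.map ψ).eq
  have k3 {p : X} (hp : p ∈ P) : ∃ p' ∈ P, ψ p' = φ p := by
    obtain ⟨a, ha⟩ := dec (y := g⁻¹ * φ p * g) (by
      simpa [mul_assoc] using (e ▸ (x.Pz p hp).map φ :).map (MulAut.conj g⁻¹))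
    have e2 : ψ a = φ p := by simp [ψ, ha, mul_assoc]
    exact ⟨a, k2 ⟨p, hp, e2.symm⟩, e2⟩
  obtain ⟨p, hp, q, hq, e2⟩ := x.zc
  obtain ⟨p', hp', e3⟩ := k3 hp
  obtain ⟨q', hq', e4⟩ := k3 hq
  have e5 : p' * q' * p'⁻¹ = q' * t := inj (by
    rw [map_mul, map_mul, map_mul, map_inv, e3, e4, e1, ← map_inv, ← map_mul, ← map_mul, e2, map_mul])
  rcases x.cP p' hp' q' hq' with e6 | e6
  · rw [e6.eq, mul_inv_cancel_right] at e5
    exact h.ne (mul_eq_left.1 e5.symm)
  · exact x.zt (mul_left_cancel (e6.symm.trans e5))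

end A1b

theorem a1b (x : XF t z P) (h : IS t φ) (hC : centralizer {φ t} = φ.range) (hn : ¬ NoZ t z φ) :
    ¬ IsConj (φ t) (φ z) ∧ ∃ g, g * φ t * g⁻¹ = φ (z * t) ∧ g * φ z * g⁻¹ = φ z := by
  have h1 : ¬ IsConj (φ t) (φ z) := fun e => by
    obtain ⟨g, hg⟩ := isConj_iff.1 e
    obtain ⟨g, e1, e2⟩ := A1b.adj x h hC hg (.inl rfl)
    exact A1b.no x h hC e1 e2
  obtain ⟨g, k, hk, e, -, -⟩ := A1a.exists_g x h hn
  obtain ⟨a, rfl⟩ : k ∈ φ.range := hC ▸ mem_centralizer_singleton_iff.2 (hk t)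
  rcases h.of_mem hk with rfl | rfl
  · exact absurd (isConj_iff.2 ⟨g, by simpa using e⟩) h1
  · obtain ⟨g, e1, e2 | e2⟩ := A1b.adj x h hC (e.trans (map_mul φ _ _).symm) (.inr rfl)
    · exact absurd (isConj_iff.2 ⟨g, e2⟩).symm h1
    · refine ⟨h1, g, e1, ?_⟩
      calc _ = g * φ (z * a) * g⁻¹ * (g * φ a * g⁻¹) := by
            rw [← mul_one (φ z), ← h.sq', map_mul]; group
        _ = _ := by rw [e1, e2, ← map_mul, ← (h.z_comm z).eq, ← mul_assoc, h.sq, one_mul]

end Cfsg.Agent.SBM
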