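import Cfsg.Agent.SBM.Defs

/-! Step A, part 2: `φ t` is weakly closed in its class under `C(φ z)`. -/

set_option autoImplicit false

namespace Cfsg.Agent.SBM

open Subgroup STD

variable {X G : Type*} [Group X] [Group G] [Finite G] {t z : X} {P : Subgroup X} {φ : X →* G}

namespace A2

omit [Finite G] in
theorem noZ_map (hn : NoZ t z φ) (y : G) : NoZ t z ((MulAut.conj y).toMonoidHom.comp φ) := by
  intro g w hw k hk e
  refine hn (y⁻¹ * g * y) w hw (y⁻¹ * k * y) (fun b => by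
    simpa [mul_assoc] using (hk b).map (MulAut.conj y⁻¹)) ?_
  have e' : g * (y * φ t * y⁻¹) * g⁻¹ = y * φ w * y⁻¹ * k := e
  calc _ = y⁻¹ * (g * (y * φ t * y⁻¹) * g⁻¹) * y := by group
    _ = _ := by rw [e']; group

omit [Finite G] in
theorem comm_z (h : IS t φ) {a : X} {k : G} (hk : k ∈ KK φ) (e : Commute (φ a * k) (φ z)) :
    Commute a z :=
  h.inj (by simpa [mul_assoc] using (e.mul_left (hk z).inv_left).eq)

omit [Finite G] in
theorem sp (x : XF t z P) (h : IS t φ) (hn : NoZ t z φ) {g : G} (hg : Commute g (φ z))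
    (hc : Commute (g * φ t * g⁻¹) (φ t)) (hne : g * φ t * g⁻¹ ≠ φ t) :
    ∃ a, Commute a z ∧ a ∉ P ∧ (a * a = 1 ∨ a * a = t) ∧ (∀ p ∈ P, p * a * p⁻¹ ≠ a * z) ∧
      ∃ k ∈ KK φ, g * φ t * g⁻¹ = φ a * k := by
  obtain ⟨a, a2, a1, a3, k, hk, e⟩ := (h.ip hc hne).dec
  have e' : g * φ t * g⁻¹ = φ a * k := e
  have hs : ∀ p ∈ P, p * a * p⁻¹ ≠ a * z := fun p _ ep => by
    refine hn (g⁻¹ * φ p * g) z (IsConj.refl z) (φ t) h.z_mem ?_
    have e1 : φ p * (g * φ t * g⁻¹) * (φ p)⁻¹ = g * φ t * g⁻¹ * φ z := by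
      rw [e']
      calc φ p * (φ a * k) * (φ p)⁻¹ = φ p * φ a * (k * (φ p)⁻¹) := by group
        _ = φ (p * a * p⁻¹) * k := by rw [(hk p).inv_right.eq, map_mul, map_mul, map_inv]; group
        _ = _ := by rw [ep, map_mul, mul_assoc, ← (hk z).eq, mul_assoc]
    calc _ = g⁻¹ * (φ p * (g * φ t * g⁻¹) * (φ p)⁻¹) * g := by group
      _ = φ t * (g⁻¹ * φ z * g) := by rw [e1]; group
      _ = _ := by rw [hg.inv_left.eq, inv_mul_cancel_right, (h.cz z).eq]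
  refine ⟨a, comm_z h hk (e' ▸ (hg.mul_left (h.cz z).symm).mul_left hg.inv_left), fun ha => ?_, a2, hs,
    k, hk, e'⟩
  rcases x.V a (fun p hp => ((x.cP p hp a ha).resolve_right (hs p hp)).symm) with c | c | c | c
  · exact a1 c
  · exact a3 c
  · exact hn g z (IsConj.refl z) k hk (c ▸ e')
  · exact hn g z (IsConj.refl z) (φ t * k) (mul_mem h.z_mem hk) (by rw [e', c, map_mul, mul_assoc])

omit [Finite G] in
theorem main (x : XF t z P) (h : IS t φ) {ψ : X →* G} (h' : IS t ψ) (hn' : NoZ t z ψ) (hz : ψ z = φ z)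
    {a b : X} {k k' : G} (az : Commute a z) (aP : a ∉ P) (a2 : a * a = 1 ∨ a * a = t)
    (as : ∀ p ∈ P, p * a * p⁻¹ ≠ a * z) (hk : k ∈ KK φ) (ea : ψ t = φ a * k)
    (bz : Commute b z) (bP : b ∉ P) (b2 : b * b = 1 ∨ b * b = t)
    (bs : ∀ p ∈ P, p * b * p⁻¹ ≠ b * z) (hk' : k' ∈ KK ψ) (eb : φ t = ψ b * k') : False := by
  have cP : ∀ {u : X}, Commute u z → ∀ q ∈ P, q * u * q⁻¹ * u⁻¹ ∈ P := fun hu q hq => by
    simpa [mul_assoc] using mul_mem hq (x.nP _ hu _ (inv_mem hq))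
  have aa : ∀ q, Commute (a * a) q := fun q => by
    rcases a2 with e | e <;> rw [e]
    exacts [.one_left _, h.z_comm q]
  have key1 : ∀ q ∈ P, ¬ Commute q a → ∃ u, Commute u z ∧ u ∉ P ∧ ∃ l ∈ KK ψ,
      φ (q * a * q⁻¹ * a⁻¹) = ψ u * l := fun q hq hqa => by
    have hc := cP az q hq
    have e1 : a * (q * a * q⁻¹ * a⁻¹) * a⁻¹ = (q * a * q⁻¹ * a⁻¹)⁻¹ := by
      calc _ = a * q * a⁻¹ * (a * a * q⁻¹ * (a * a)⁻¹) := by group
        _ = _ := by rw [(aa q⁻¹).eq]; group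
    have e2 : Commute (q * a * q⁻¹ * a⁻¹) a := by
      generalize q * a * q⁻¹ * a⁻¹ = c at hc e1
      rcases x.sP c hc with e | e
      · rw [inv_eq_of_mul_eq_one_right e, mul_inv_eq_iff_eq_mul] at e1
        exact e1.symm
      · refine absurd ?_ (as c⁻¹ (inv_mem hc))
        calc c⁻¹ * a * c⁻¹⁻¹ = c⁻¹ * (a * c * a⁻¹) * a := by group
          _ = (c * c)⁻¹ * a := by rw [e1]; group
          _ = _ := by rw [e, inv_eq_of_mul_eq_one_right x.z2, az.eq]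
    have e3 : φ q * ψ t * (φ q)⁻¹ = φ (q * a * q⁻¹ * a⁻¹) * ψ t := by
      rw [ea, ← mul_assoc, mul_assoc _ k, (hk q).inv_right.eq]
      simp only [map_mul, map_inv]; group
    obtain ⟨u, uz, uP, -, -, l, hl, e⟩ := sp x h' hn' (g := φ q) (hz ▸ (x.Pz q hq).map φ)
      (e3 ▸ (ea ▸ (e2.map φ).mul_right (hk _).symm : Commute _ (ψ t)).mul_left (.refl _)) (fun e => hqa (by
        rw [e3, mul_eq_right, map_eq_one_iff φ h.inj, mul_inv_eq_one, mul_inv_eq_iff_eq_mul] at e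
        exact e))
    exact ⟨u, uz, uP, l * (ψ t)⁻¹, mul_mem hl (inv_mem h'.z_mem), by
      rw [← mul_assoc, ← e, e3, mul_inv_cancel_right]⟩
  have key2 : ∀ q ∈ P, ∀ q' ∈ P, ∀ p ∈ P, ∀ l ∈ KK ψ,
      φ (q' * a * q'⁻¹ * a⁻¹ * (q * a * q⁻¹ * a⁻¹)⁻¹) = ψ p * l → Commute (q⁻¹ * q') a := by
    intro q hq q' hq' p hp l hl e
    by_contra c
    have hqq := mul_mem (inv_mem hq) hq'
    obtain ⟨u, -, uP, m, hm, e'⟩ := key1 _ hqq c
    have hc := cP az _ hqq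
    rw [show q' * a * q'⁻¹ * a⁻¹ * (q * a * q⁻¹ * a⁻¹)⁻¹ =
      q * (q⁻¹ * q' * a * (q⁻¹ * q')⁻¹ * a⁻¹) * q⁻¹ by group] at e
    generalize q⁻¹ * q' * a * (q⁻¹ * q')⁻¹ * a⁻¹ = d at e e' hc
    have fin : ∀ r ∈ P, φ d = ψ r * l → False := fun r hr e => by
      have : ψ (r⁻¹ * u) = l * m⁻¹ := by
        rw [map_mul, map_inv, eq_mul_inv_iff_mul_eq, mul_assoc, ← e', e, inv_mul_cancel_left]
      rcases h'.of_mem (this ▸ mul_mem hl (inv_mem hm)) with c | c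
      · exact uP (inv_mul_eq_one.1 c ▸ hr)
      · exact uP (inv_mul_eq_iff_eq_mul.1 c ▸ mul_mem hr x.tP)
    rcases x.cP q hq d hc with c | c
    · exact fin p hp (by rw [← e, c.eq, mul_inv_cancel_right])
    · refine fin (p * z⁻¹) (mul_mem hp (inv_mem x.zP)) ?_
      rw [c, map_mul, ← hz] at e
      rw [map_mul, map_inv, mul_assoc, ← (hl z).inv_right.eq, ← mul_assoc, ← e, mul_inv_cancel_right]
  have key3 : ∀ q ∈ P, ¬ Commute q a → ∃ u, u * b⁻¹ ∈ P ∧ ∃ l ∈ KK ψ,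
      φ (q * a * q⁻¹ * a⁻¹) = ψ u * l := fun q hq hqa => by
    obtain ⟨u, uz, uP, l, hl, e⟩ := key1 q hq hqa
    refine ⟨u, (x.L6 b bz bP b2 bs u uz fun f hf hfb => ?_).resolve_left uP, l, hl, e⟩
    obtain ⟨v, m, hm, ef⟩ := h.dec (g := ψ f) (eb ▸ (hfb.map ψ).mul_right (hk' f).symm)
    have vz : Commute v z := comm_z h hm (ef ▸ hz ▸ (x.Pz f hf).map ψ)
    have hq' := x.nP v vz q hq
    have e1 : v * (q * a * q⁻¹ * a⁻¹) * v⁻¹ = v * q * v⁻¹ * a * (v * q * v⁻¹)⁻¹ * a⁻¹ := by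
      rw [show v * (q * a * q⁻¹ * a⁻¹) * v⁻¹ =
        v * q * v⁻¹ * (v * a * v⁻¹) * (v * q * v⁻¹)⁻¹ * (v * a * v⁻¹)⁻¹ by group]
      rcases h.comm_or hk hm (ea ▸ ef ▸ (h'.cz f).symm) with c | c <;> rw [c]
      generalize v * q * v⁻¹ = r
      calc r * (a * t) * r⁻¹ * (a * t)⁻¹ = r * a * (t * r⁻¹) * t⁻¹ * a⁻¹ := by group
        _ = _ := by rw [(h.z_comm _).eq]; group
    have e2 : φ (v * q * v⁻¹ * a * (v * q * v⁻¹)⁻¹ * a⁻¹ * (q * a * q⁻¹ * a⁻¹)⁻¹) =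
        ψ (f * u * f⁻¹ * u⁻¹) * 1 := by
      rw [← e1]
      generalize q * a * q⁻¹ * a⁻¹ = d at e
      have e3 : φ v * φ d * (φ v)⁻¹ = ψ f * φ d * (ψ f)⁻¹ := by
        rw [ef, mul_assoc _ m, (hm d).eq]; group
      simp only [map_mul, map_inv]
      rw [e3, e, mul_assoc (ψ f), mul_assoc (ψ u), (hl f).inv_right.eq]; group
    have c := key2 q hq _ hq' _ (cP uz f hf) 1 (one_mem _) e2
    rw [show v * q * v⁻¹ * a * (v * q * v⁻¹)⁻¹ * a⁻¹ * (q * a * q⁻¹ * a⁻¹)⁻¹ =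
      q * (q⁻¹ * (v * q * v⁻¹) * a * (q⁻¹ * (v * q * v⁻¹))⁻¹ * a⁻¹) * q⁻¹ by group, c.eq,
      mul_inv_cancel_right, mul_inv_cancel, mul_one, mul_inv_cancel, map_one, mul_one, eq_comm,
      map_eq_one_iff ψ h'.inj, mul_inv_eq_one, mul_inv_eq_iff_eq_mul] at e2
    exact e2
  obtain ⟨p, hp, q, hq, c1, c2, c3⟩ := x.L7 a az aP
  obtain ⟨u, hu, l, hl, e1⟩ := key3 p hp c1
  obtain ⟨v, hv, m, hm, e2⟩ := key3 q hq c2
  refine c3 (key2 q hq p hp _ (mul_mem hu (inv_mem hv)) _ (mul_mem hl (inv_mem hm)) ?_)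
  rw [map_mul, map_inv, e1, e2, show u * b⁻¹ * (v * b⁻¹)⁻¹ = u * v⁻¹ by group, map_mul, map_inv, mul_inv_rev,
    mul_assoc, mul_assoc, ← mul_assoc l, (mul_mem hl (inv_mem hm) v).inv_right.eq]

end A2

theorem a2 (x : XF t z P) (h : IS t φ) (hn : NoZ t z φ) {y : G} (hy : Commute y (φ z))
    (hc : Commute (y * φ t * y⁻¹) (φ t)) : y * φ t * y⁻¹ = φ t := by
  by_contra hne
  have hz : ((MulAut.conj y).toMonoidHom.comp φ) z = φ z := by
    change y * φ z * y⁻¹ = _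
    rw [hy.eq, mul_inv_cancel_right]
  have e0 : y⁻¹ * ((MulAut.conj y).toMonoidHom.comp φ) t * y⁻¹⁻¹ = φ t := by
    change y⁻¹ * (y * φ t * y⁻¹) * y⁻¹⁻¹ = _
    group
  obtain ⟨a, az, aP, a2, as, k, hk, ea⟩ := A2.sp x h hn hy hc hne
  obtain ⟨b, bz, bP, b2, bs, k', hk', eb⟩ := A2.sp x (h.map (MulAut.conj y)) (A2.noZ_map hn y) (g := y⁻¹)
    (hz ▸ hy.inv_left) (e0 ▸ hc.symm) (e0 ▸ Ne.symm hne)
  exact A2.main x h (h.map (MulAut.conj y)) (A2.noZ_map hn y) hz az aP a2 as hk ea bz bP b2 bs hk'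
    (e0 ▸ eb)

end Cfsg.Agent.SBM
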