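import Cfsg.Agent.SBM.Defs

/-! Step A, part 3: no commuting conjugate of `φ t` when `C(φ z) ≤ C(φ t)`. -/

set_option autoImplicit false

namespace Cfsg.Agent.SBM

open Subgroup STD

variable {X G : Type*} [Group X] [Group G] [Finite G] {t z : X} {P : Subgroup X} {φ : X →* G}

theorem A3.seven (ht : ∀ a, Commute t a) (t2 : t * t = 1) {a b c : X} (ha : a * a = t) (hb : b * b = t)
    (hc : c * c = t) (hab : a * b * (a * b) = t) (hac : a * c * (a * c) = t) (hbc : b * c * (b * c) = t)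
    (h : a * (b * c) * (a * (b * c)) = t) : t = 1 := by
  have k : ∀ a b : X, a * a = t → b * b = t → a * b * (a * b) = t → ∀ y, b * (a * y) = t * (a * (b * y)) :=
    fun a b ha hb h y => by
      rw [← mul_assoc, show b * a = a⁻¹ * (a * b * (a * b)) * b⁻¹ by group, h,
        show a⁻¹ = a * t from inv_eq_of_mul_eq_one_right (by rw [← mul_assoc, ha, t2]),
        show b⁻¹ = t * b from inv_eq_of_mul_eq_one_left (by rw [mul_assoc, hb, t2]), mul_assoc a, t2, mul_one,
        ← mul_assoc a, ← (ht a).eq]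
      group
  have m : ∀ a y : X, a * (t * y) = t * (a * y) := fun a y => by rw [← mul_assoc, ← (ht a).eq, mul_assoc]
  simp only [mul_assoc] at h
  rw [k a c ha hc hac, k b c hb hc hbc, hc] at h
  simp only [m a, m b, ← (ht b).eq] at h
  rw [← mul_assoc a, hab, t2, mul_one, t2] at h
  exact h.symm

omit [Finite G] in
theorem A3.core (x : XF t z P) (h : IS t φ) (hn : NoZ t z φ) (hI : ∀ g, Commute g (φ z) → Commute g (φ t))
    {g : G} (hc : Commute (g * φ t * g⁻¹) (φ t)) (hne : g * φ t * g⁻¹ ≠ φ t) {b : X} (bz : Commute b z)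
    (b2 : b * b = 1 ∨ b * b = t) (b1 : b ≠ 1) (bt : b ≠ t) {k' : G}
    (hk' : k' ∈ KK ((MulAut.conj g).toMonoidHom.comp φ)) (e' : φ t = g * φ b * g⁻¹ * k') : False := by
  have p := h.ip hc hne
  have hψ : ∀ y, (MulAut.conj g).toMonoidHom.comp φ y = g * φ y * g⁻¹ := fun _ => rfl
  have nz : ∀ w, IsConj z w → ∀ k ∈ KK ((MulAut.conj g).toMonoidHom.comp φ),
      φ t ≠ (MulAut.conj g).toMonoidHom.comp φ w * k := fun w hw k hk e =>
    hn g⁻¹ w hw (g⁻¹ * k * g) (fun y => by simpa [mul_assoc] using (hk y).map (MulAut.conj g⁻¹))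
      (by rw [e, hψ]; group)
  have hI' : ∀ w, IsConj z w → ∀ y, Commute y ((MulAut.conj g).toMonoidHom.comp φ w) →
      Commute y ((MulAut.conj g).toMonoidHom.comp φ t) := fun w hw y hy => by
    obtain ⟨l, rfl⟩ := isConj_iff.1 hw
    have := (hI _ (by simpa [mul_assoc] using hy.map (MulAut.conj (g * φ l)⁻¹))).map (MulAut.conj (g * φ l))
    simpa [mul_assoc, ← (h.cz l).inv_left.eq] using this
  rw [← hψ] at e'
  generalize (MulAut.conj g).toMonoidHom.comp φ = ψ at *
  obtain ⟨a, -, a1, a2, k, hk, e⟩ := p.dec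
  have sq : ∀ w, IsConj z w → Commute w b → ∀ c, ∀ l ∈ KK φ, ψ w = φ c * l → c * c = t := by
    intro w hw wb c l hl ec
    have w2 : w * w = 1 := by
      obtain ⟨l, rfl⟩ := isConj_iff.1 hw
      rw [conj_mul, x.z2, mul_one, mul_inv_cancel]
    have w1 : w ≠ 1 := fun e => x.z1 (isConj_one_left.1 (e ▸ hw))
    have wt : w ≠ t := fun e => by
      obtain ⟨l, hl⟩ := isConj_iff.1 hw.symm
      exact x.zt (by rw [← hl, e, ← (h.z_comm l).eq, mul_inv_cancel_right])
    have c2 := h.pow_cases hl (b := 1) (n := 2) (by rw [← ec, ← map_pow, pow_two, w2, map_one, map_one])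
    rw [pow_two, one_mul] at c2
    refine c2.resolve_left fun c2 => ?_
    have nK : φ c ∉ KK φ := fun hc => p.nl fun y => (hI' w hw _ (ec ▸ (mul_mem hc hl y).symm)).symm
    have h1 : φ (a * c) ∈ KK φ := by
      rcases x.F c c2 (fun e => nK (by rw [e, map_one]; exact one_mem _)) (fun e => nK (e ▸ h.z_mem)) a
        fun y hy => h.inj (by
          simpa [e] using ((hI' w hw (φ y) (ec ▸ (hy.map φ).mul_right (hl y).symm)).mul_right
            (hk y).symm.inv_right).eq) with e | e | e | e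
      exacts [absurd e a1, absurd e a2, by rw [e, c2, map_one]; exact one_mem _,
        by rw [e, mul_assoc, (h.z_comm c).eq, ← mul_assoc, c2, one_mul]; exact h.z_mem]
    have h2 : ψ (t * w) ∈ KK φ := by
      rw [map_mul, e, ec, (hk c).mul_mul_mul_comm, ← map_mul]
      exact mul_mem h1 (mul_mem hk hl)
    rcases x.F w w2 w1 wt b fun y hy => p.r.inj (by
      simpa [e'] using ((h.tight (by rw [← map_mul, (h.z_comm w).symm.mul_mul_mul_comm, h.sq, w2, one_mul, map_one])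
        (fun e => wt (by
          rw [← inv_eq_of_mul_eq_one_right (p.r.inj (e.trans (map_one ψ).symm)), inv_eq_of_mul_eq_one_right h.sq]))
        h2 (((h.z_comm y).symm.mul_right hy).map ψ)).mul_right (hk' y).symm.inv_right).eq) with e | e | e | e
    exacts [b1 e, bt e, nz w hw k' hk' (e ▸ e'),
      nz w hw _ (mul_mem p.r.z_mem hk') (by rw [e', e, map_mul, mul_assoc])]
  obtain ⟨u, -, w, -, ub, wb, -, c1, c2, c3, c4, c5, c6⟩ := x.F5 b bz b2
  have d := fun {w} (hw : Commute w b) => h.dec (g := ψ w) (e' ▸ (hw.map ψ).mul_right (hk' w).symm)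
  obtain ⟨a1, k1, h1, e1⟩ := d bz.symm
  obtain ⟨a2, k2, h2, e2⟩ := d ub
  obtain ⟨a3, k3, h3, e3⟩ := d wb
  have m : ∀ {v v' c c' l l'}, l ∈ KK φ → ψ v = φ c * l → ψ v' = φ c' * l' → ψ (v * v') = φ (c * c') * (l * l') :=
    fun hl e e' => by rw [map_mul, map_mul, e, e', (hl _).mul_mul_mul_comm]
  exact h.ne (A3.seven h.z_comm h.sq (sq _ (.refl z) bz.symm _ _ h1 e1) (sq _ c1 ub _ _ h2 e2) (sq _ c2 wb _ _ h3 e3)
    (sq _ c4 (bz.symm.mul_left ub) _ _ (mul_mem h1 h2) (m h1 e1 e2))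
    (sq _ c5 (bz.symm.mul_left wb) _ _ (mul_mem h1 h3) (m h1 e1 e3))
    (sq _ c3 (ub.mul_left wb) _ _ (mul_mem h2 h3) (m h2 e2 e3))
    (sq _ c6 (bz.symm.mul_left (ub.mul_left wb)) _ _ (mul_mem h1 (mul_mem h2 h3)) (m h1 e1 (m h2 e2 e3))))

theorem a3 (x : XF t z P) (h : IS t φ) (hn : NoZ t z φ) (hI : ∀ g, Commute g (φ z) → Commute g (φ t))
    {g : G} (hc : Commute (g * φ t * g⁻¹) (φ t)) : g * φ t * g⁻¹ = φ t := by
  by_contra hne
  have : Finite X := .of_injective _ h.inj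
  have : Fact (Nat.Prime 2) := ⟨Nat.prime_two⟩
  obtain ⟨b, b2, b1, bt, k, hk, e⟩ := (h.ip hc hne).symm.dec
  obtain ⟨l, hl⟩ : ∃ l, Commute (l * b * l⁻¹) z := by
    obtain ⟨S⟩ : Nonempty (Sylow 2 (centralizer ({z} : Set X))) := inferInstance
    have h4 : b ^ 2 ^ 2 = 1 := by
      rw [show b ^ 2 ^ 2 = b * b * (b * b) by simp [pow_succ, mul_assoc]]
      rcases b2 with e | e <;> rw [e]
      exacts [one_mul 1, h.sq]
    obtain ⟨j, -, hj⟩ := (Nat.dvd_prime_pow Nat.prime_two).1 (orderOf_dvd_of_pow_eq_one h4)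
    obtain ⟨T, hT⟩ := (IsPGroup.of_card ((Nat.card_zpowers b).trans hj)).exists_le_sylow
    obtain ⟨l, hl⟩ := MulAction.exists_smul_eq X T ((S.isPGroup'.map (Subgroup.subtype _)).toSylow (by
      rw [index_map_subtype]
      exact fun h => ((Nat.Prime.dvd_mul Nat.prime_two).1 h).elim S.not_dvd_index x.odd))
    have := smul_mem_pointwise_smul b (MulAut.conj l) _ (hT (mem_zpowers b))
    rw [← Sylow.coe_subgroup_smul, hl] at this
    exact ⟨l, mem_centralizer_singleton_iff.1 (map_subtype_le _ this)⟩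
  have tl : l * t * l⁻¹ = t := by rw [← (h.z_comm l).eq, mul_inv_cancel_right]
  have e0 : g * (φ l)⁻¹ * φ t * (g * (φ l)⁻¹)⁻¹ = g * φ t * g⁻¹ := by
    rw [mul_assoc g, (h.cz l).inv_left.eq]; group
  refine A3.core x h hn hI (e0 ▸ hc) (e0 ▸ hne) hl (k' := k) ?_ (fun e => b1 (conj_eq_one_iff.1 e))
    (fun e => bt ((MulAut.conj l).injective (e.trans tl.symm))) (fun y => ?_) ?_
  · rw [conj_mul]
    exact b2.imp (fun e => by rw [e, mul_one, mul_inv_cancel]) fun e => by rw [e, tl]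
  · simpa [mul_assoc] using hk (l⁻¹ * y * l)
  · simpa [mul_assoc] using e

end Cfsg.Agent.SBM
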