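import Cfsg.Agent.SBM.A1a
import Cfsg.Agent.SBM.A1b
import Cfsg.Agent.SBM.A2
import Cfsg.Agent.SBM.A3
import Cfsg.Agent.STD1.Ctx

set_option autoImplicit false

namespace Cfsg.Agent.SBM

open Subgroup STD

variable {X G : Type*} [Group X] [Group G] [Finite G] {t z : X} {P : Subgroup X} {φ : X →* G}

theorem stepA [IsSimpleGroup G] (hG : ¬ IsMulCommutative G)
    (hbal : ∀ s : G, orderOf s = 2 → centralizerPPrimeCore 2 s = ⊥) (x : XF t z P) (h : IS t φ) :
    centralizer {φ t} = φ.range ∧ ¬ IsConj (φ t) (φ z) ∧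
      ∃ g, g * φ t * g⁻¹ = φ (z * t) ∧ g * φ z * g⁻¹ = φ z := by
  by_cases hn : NoZ t z φ
  · exfalso
    have hz : orderOf (φ z) = 2 := by
      rw [orderOf_injective φ h.inj]
      exact orderOf_eq_prime (by rw [pow_two, x.z2]) x.z1
    have hO : oddCore (centralizer ({φ z} : Set G)) = ⊥ :=
      (map_eq_bot_iff_of_injective _ (subtype_injective _)).1 (hbal _ hz)
    have ht : φ t ∈ centralizer ({φ z} : Set G) := mem_centralizer_singleton_iff.2 (h.cz z).symm.eq
    rcases STD1.central_or_conj hO (t := ⟨φ t, ht⟩) (by rw [← orderOf_coe]; exact h.ord) with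
      h1 | ⟨y, h1, h2⟩
    · obtain ⟨g, h2, h3⟩ := exists_comm_conj hG h.ord
      exact h3 (a3 x h hn (fun g hg => congrArg Subtype.val
        (h1 ⟨g, mem_centralizer_singleton_iff.2 hg.eq⟩)) h2)
    · exact h1 (Subtype.ext (a2 x h hn (mem_centralizer_singleton_iff.1 y.2) (congrArg Subtype.val h2)))
  · exact ⟨a1a x h hbal hn, a1b x h (a1a x h hbal hn) hn⟩

end Cfsg.Agent.SBM
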