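import Cfsg.Agent.SBM.Defs

/-! Project SBM: basic facts on the model. -/

set_option autoImplicit false

namespace Cfsg.Agent.SBM

open Subgroup H15 H38.MT

theorem Cg.refl (x : leechLattice) : Cg x x := ⟨0, by simp⟩

theorem Cg.symm {x y : leechLattice} (h : Cg x y) : Cg y x :=
  let ⟨w, e⟩ := h; ⟨-w, by rw [e]; abel⟩

theorem Cg.trans {x y u : leechLattice} (h : Cg x y) (h' : Cg y u) : Cg x u :=
  let ⟨w, e⟩ := h; let ⟨w', e'⟩ := h'; ⟨w + w', by rw [e, e']; abel⟩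

theorem Cg.add {x y x' y' : leechLattice} (h : Cg x y) (h' : Cg x' y') : Cg (x + x') (y + y') :=
  let ⟨w, e⟩ := h; let ⟨w', e'⟩ := h'; ⟨w + w', by rw [e, e']; abel⟩

theorem Cg.smul {x y : leechLattice} (h : Cg x y) (k : Co0) : Cg (k • x) (k • y) :=
  let ⟨w, e⟩ := h; ⟨k • w, by rw [e, co0_smul_add, co0_smul_add]⟩

theorem Cg.neg (x : leechLattice) : Cg (-x) x := ⟨-x, by abel⟩

theorem Cg.pp {x y : leechLattice} (h : Cg x y) (u : leechLattice) : Pp x u ↔ Pp y u := by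
  obtain ⟨w, rfl⟩ := h
  obtain ⟨a, ha⟩ := eight_dvd_dot w.2 u.2
  simp only [Pp, AddSubgroup.coe_add, dot_add_left]
  omega

theorem Pp.symm {x y : leechLattice} (h : Pp x y) : Pp y x := by rwa [Pp, dot_comm]

theorem pp_self (x : leechLattice) : Pp x x := by
  rw [Pp, dot_self]; exact sixteen_dvd_sqNorm x.2

theorem pp_add (x y u : leechLattice) : Pp (x + y) u ↔ (Pp x u ↔ Pp y u) := by
  obtain ⟨a, ha⟩ := eight_dvd_dot x.2 u.2
  obtain ⟨b, hb⟩ := eight_dvd_dot y.2 u.2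
  simp only [Pp, AddSubgroup.coe_add, dot_add_left]
  omega

theorem pp_smul (k : Co0) (x y : leechLattice) : Pp (k • x) (k • y) ↔ Pp x y := by rw [Pp, co0_dot]

/-- congruent minimal vectors agree up to sign -/
theorem Cg.pm {x y : leechLattice} (h : Cg x y) (hx : sqNorm (x : Vec) = 32) (hy : sqNorm (y : Vec) = 32) :
    x = y ∨ x = -y := by
  obtain ⟨w, e⟩ := h.symm
  exact (short_congr e (by omega) (by omega) (by omega) (by omega)).2 (by omega)

theorem norm_bb : sqNorm (bb : Vec) = 32 := sqNorm_w4 (by decide) rfl rfl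

theorem dot_uu_bb : dotInt (uu : Vec) (bb : Vec) = 16 := by
  rw [dot_uu]; simp only [bb, w4_apply]; decide

theorem dot_uu_uP : dotInt (uu : Vec) (uP : Vec) = 0 := by
  rw [dot_uu]; simp [uP_val]

theorem uu_add_uP : uu + uP = e8 none := Subtype.ext (funext fun i => by
  simp only [AddSubgroup.coe_add, Pi.add_apply, uu_val, uP_val, e8_val, Pi.single_apply]
  split_ifs <;> simp_all)

/-- inner products of minimal vectors -/
theorem dot_min {x y : leechLattice} (hx : sqNorm (x : Vec) = 32) (hy : sqNorm (y : Vec) = 32) :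
    x = y ∨ x = -y ∨ (-16 ≤ dotInt (x : Vec) y ∧ dotInt (x : Vec) y ≤ 16) := by
  by_cases e1 : x = y
  · exact .inl e1
  by_cases e2 : x = -y
  · exact .inr (.inl e2)
  have h1 := min_norm (x - y).2 fun e => e1 (sub_eq_zero.1 (Subtype.ext e))
  have h2 := min_norm (x + y).2 fun e => e2 (eq_neg_of_add_eq_zero_left (Subtype.ext e))
  rw [AddSubgroup.coe_sub, sqNorm_sub] at h1
  rw [AddSubgroup.coe_add, sqNorm_add] at h2
  omega

section MD

variable {M : Type*} [Group M] {z : M} {Q : Subgroup M}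
  {π : centralizer ({z} : Set M) →* Spor.Co1} {R : M → leechLattice → Prop}

theorem lab_cg (m : MD z Q π R) {q : M} {v v' : leechLattice} (h : R q v) (e : Cg v' v) : R q v' :=
  let ⟨w, e⟩ := e; e ▸ m.add_two h w

/-- exact lifts for two independent labels -/
theorem lift2 (m : MD z Q π R) {x y x' y' : M} {u v : leechLattice} {k : Co0} (hx : R x u) (hy : R y v)
    (hx' : R x' (k • u)) (hy' : R y' (k • v)) (h1 : ¬ Cg u 0) (h2 : ¬ Cg v 0) (h3 : ¬ Cg u v) :
    ∃ c, Ov π c k ∧ c * x * c⁻¹ = x' ∧ c * y * c⁻¹ = y' := by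
  have n : ∀ {q w}, R q w → ¬ Cg w 0 → q ≠ 1 ∧ q ≠ z := fun h e => not_or.1 fun e' =>
    e (let ⟨w, e⟩ := (m.one_iff h).1 e'; ⟨w, by rw [e, zero_add]⟩)
  have s : ∀ {w}, ¬ Cg w 0 → ¬ Cg (k • w) 0 := fun e e' => e (by
    simpa [co0_smul_zero] using e'.smul k⁻¹)
  obtain ⟨c, e1, e2⟩ := m.lift_cent hx hx' (n hx' (s h1)).1 (n hx' (s h1)).2
  have o : Ov π c k := ⟨c.2, e1⟩
  rcases m.uniq hy' (o.lab m hy) with e | e
  · exact ⟨c, o, e2, e⟩
  have n3 := n (m.mul hx' hy') fun e' => h3 (by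
    have := (e'.smul k⁻¹).add (Cg.refl v)
    simp only [co0_smul_add, inv_smul_smul, co0_smul_zero, zero_add] at this
    exact (show Cg u (u + v + v) from ⟨-v, by abel⟩).trans this)
  have x2 : ∀ {a b : M}, a = b → x' * a = x' * b := fun e => e ▸ rfl
  obtain ⟨b, hb, b1, b2⟩ := lx_sep m.lx (m.mem hx') (m.mem hy') (n hy' (s h2)).1 (n hy' (s h2)).2
    (fun e => by
      rcases m.lx.sqr x' (m.mem hx') with e' | e'
      exacts [n3.1 (e ▸ e'), n3.2 (e ▸ e')])
    (fun e => by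
      have e0 : x' * y' = z * (x' * x') := by rw [e, ← mul_assoc, m.lx.cen x' (m.mem hx'), mul_assoc]
      rcases m.lx.sqr x' (m.mem hx') with e' | e' <;> rw [e'] at e0
      exacts [n3.2 (e0.trans (mul_one z)), n3.1 (e0.trans m.lx.sq)])
  refine ⟨b * c, by simpa using (ov_one m hb).mul o, ?_, ?_⟩
  · calc _ = b * (c * x * (c : M)⁻¹) * b⁻¹ := by group
      _ = _ := by rw [e2, b1, mul_inv_cancel_right]
  · calc _ = b * (c * y * (c : M)⁻¹) * b⁻¹ := by group
      _ = _ := by rw [e, ← conj_mul, b2, m.lx.cen b hb, mul_inv_cancel_right, m.zz]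

end MD

namespace Mod

variable {M : Type*} [Group M] [Finite M] {z t : M} {Q : Subgroup M}
  {π : centralizer ({z} : Set M) →* Spor.Co1} {R : M → leechLattice → Prop} (m : Mod z t Q π R)
include m

omit [Finite M] in
theorem tQ : t ∈ Q := m.md.mem m.lt

theorem t2 : t * t = 1 := (m.md.sq_iff m.lt).2 (by rw [sqNorm_uu])

omit [Finite M] in
theorem t1 : t ≠ 1 := (m.md.ne_of_short m.lt (by rw [sqNorm_uu]; omega) (by rw [sqNorm_uu]; omega)).1

omit [Finite M] in
theorem tz : Commute t z := m.md.lx.cen t m.tQ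

theorem sq {a : M} (h : IsConj t a) : a * a = 1 := by
  obtain ⟨k, rfl⟩ := isConj_iff.1 h
  rw [conj_mul, m.t2]; simp

omit [Finite M] in
theorem sqz {a : M} (h : IsConj z a) : a * a = 1 := by
  obtain ⟨k, rfl⟩ := isConj_iff.1 h
  rw [conj_mul, m.md.lx.sq]; simp

omit [Finite M] in
theorem excl {a : M} (h : IsConj t a) : ¬ IsConj z a := fun e => m.nc (e.trans h.symm)

omit [Finite M] in
theorem of32 {q : M} {v : leechLattice} (h : R q v) (hv : sqNorm (v : Vec) = 32) : IsConj t q :=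
  let ⟨c, _, e⟩ := m.md.trans m.lt h (.inl ⟨sqNorm_uu, hv⟩); isConj_iff.2 ⟨c, e⟩

theorem of64 {q : M} {v : leechLattice} (h : R q v) (hv : sqNorm (v : Vec) = 64) : IsConj z q :=
  let ⟨_, h1, h2⟩ := m.nwc; m.md.isConj_of_four h1 h2 h hv

theorem lab32 {q : M} (hq : q ∈ Q) (h : IsConj t q) : ∃ v, R q v ∧ sqNorm (v : Vec) = 32 :=
  let ⟨_, h1, h2⟩ := m.nwc
  m.md.type_two h1 h2 hq (fun e => m.t1 (by simpa [e] using h)) (m.sq h) (m.excl h)

theorem lab64 {q : M} (hq : q ∈ Q) (h : IsConj z q) (hz : q ≠ z) : ∃ v, R q v ∧ sqNorm (v : Vec) = 64 := by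
  obtain ⟨g, rfl⟩ := isConj_iff.1 h
  exact m.md.type_four hq hz

omit [Finite M] in
theorem c_tz : IsConj t (t * z) := by
  rw [m.tz.eq]; exact m.of32 (m.md.zmul m.lt) sqNorm_uu

theorem adj {x y : M} {a b : leechLattice} (hx : R x a) (hy : R y b) (ha : sqNorm (a : Vec) = 32)
    (hb : sqNorm (b : Vec) = 32) :
    IsConj t (x * y) ↔ dotInt (a : Vec) b = 16 ∨ dotInt (a : Vec) b = -16 := by
  have e1 : sqNorm ((a + b : leechLattice) : Vec) = 64 + 2 * dotInt (a : Vec) b := by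
    rw [AddSubgroup.coe_add, sqNorm_add]; omega
  have e2 : sqNorm ((a + -b : leechLattice) : Vec) = 64 - 2 * dotInt (a : Vec) b := by
    rw [AddSubgroup.coe_add, sqNorm_add, AddSubgroup.coe_neg, dot_neg_right, sqNorm_neg]; omega
  have r1 := m.md.mul hx hy
  have r2 := m.md.mul hx (m.md.neg hy)
  refine ⟨fun h => ?_, fun h => h.elim (fun h => m.of32 r2 (by omega)) fun h => m.of32 r1 (by omega)⟩
  obtain ⟨c, hc, n⟩ := m.lab32 (m.md.mem r1) h
  have key : ∀ v, R (x * y) v → sqNorm (v : Vec) ≤ 64 → sqNorm (v : Vec) = 32 := fun v hv h' => by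
    have : sqNorm (v : Vec) ≠ 0 := fun h0 =>
      not_or.2 (m.md.ne_of_short hc (by omega) (by omega)) ((m.md.one_iff hv).2
        ⟨0, by rw [add_zero]; exact Subtype.ext (sqNorm_eq_zero h0)⟩)
    rw [m.md.norm_eq hc hv (by omega) (by omega) this h', n]
  rcases le_total (dotInt (a : Vec) b) 0 with h' | h'
  · have := key _ r1 (by omega); omega
  · have := key _ r2 (by omega); omega

/-- pairs `(x, w)` with `x`, `x w` in 2A and `w` in 2B are conjugate to `(t, z)` -/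
theorem pair {x w : M} (hx : IsConj t x) (hw : IsConj z w) (h : IsConj t (x * w)) :
    ∃ g, g * t * g⁻¹ = x ∧ g * z * g⁻¹ = w := by
  obtain ⟨a, rfl⟩ := isConj_iff.1 hx
  have e : t * (a⁻¹ * (a * t * a⁻¹ * w) * a⁻¹⁻¹) = a⁻¹ * w * a⁻¹⁻¹ := by
    calc _ = t * t * (a⁻¹ * w * a) := by group
      _ = _ := by rw [m.t2]; group
  obtain ⟨h, h1, h2⟩ := m.s2 _ (h.trans (isConj_iff.2 ⟨a⁻¹, rfl⟩)) (e ▸ hw.trans (isConj_iff.2 ⟨a⁻¹, rfl⟩))
  have f : h * t * h⁻¹ = t := by rw [h1.eq, mul_inv_cancel_right]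
  refine ⟨a * h, by rw [mul_inv_rev, ← mul_assoc, mul_assoc a, mul_assoc a, f], ?_⟩
  rw [← h2, ← conj_mul, f, ← mul_assoc, m.t2, one_mul] at e
  calc _ = a * (h * z * h⁻¹) * a⁻¹ := by group
    _ = _ := by rw [e]; group

/-- elements `w` of class 2B with `t w` in 2A are conjugate to `z` in `C(t)` -/
theorem ztype {w : M} (hw : IsConj z w) (h : IsConj t (t * w)) : ∃ g, Commute g t ∧ g * z * g⁻¹ = w :=
  let ⟨g, h1, h2⟩ := m.pair (IsConj.refl t) hw h; ⟨g, mul_inv_eq_iff_eq_mul.1 h1, h2⟩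

theorem q5' {x g : M} (hx : IsConj t x) (h : IsConj t (x * (g * z * g⁻¹))) : x ∈ cjs g Q := by
  obtain ⟨a, h1, h2⟩ := m.pair hx (isConj_iff.2 ⟨g, rfl⟩) h
  have := m.md.lx.norm (g⁻¹ * a) (by
    calc _ = g⁻¹ * (a * z * a⁻¹) * a := by group
      _ = _ := by rw [h2]; group) t m.tQ
  rw [mem_cjs, ← h1]
  simpa [mul_assoc] using this

theorem q5 {x : M} (hx : IsConj t x) (h : IsConj t (x * z)) : x ∈ Q := by
  simpa [mem_cjs] using m.q5' (g := 1) hx (by simpa using h)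

omit [Finite M] in
/-- elements of `C(t, z)` lie over the stabiliser of `uu` -/
theorem ov_fix {a : M} (h1 : Commute a t) (h2 : Commute a z) : ∃ k, Ov π a k ∧ k • uu = uu := by
  obtain ⟨k, o⟩ := ov_ex π (mem_centralizer_singleton_iff.2 h2)
  have := o.lab m.md m.lt
  rw [h1.eq, mul_inv_cancel_right] at this
  obtain ⟨w, e⟩ := m.md.congr m.lt this
  obtain ⟨k', e1, e2⟩ := exists_fix_of_congr sqNorm_uu e
  exact ⟨k', ⟨o.1, e1.trans o.2⟩, e2⟩

omit [Finite M] in
theorem lift_fix {k : Co0} (h : k • uu = uu) : ∃ a, Commute a t ∧ Commute a z ∧ Ov π a k := by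
  obtain ⟨c, e1, e2⟩ := m.md.lift_cent (k := k) m.lt (h.symm ▸ m.lt) m.t1 fun e => m.nc (e ▸ IsConj.refl _)
  exact ⟨c, mul_inv_eq_iff_eq_mul.1 e2, mem_centralizer_singleton_iff.1 c.2, c.2, e1⟩

theorem comm_t {q : M} {v : leechLattice} (h : R q v) : Commute q t ↔ Pp v uu := m.md.comm_iff h m.lt

omit [Finite M] in
/-- the model seen from a conjugate of `z` under `C(t)` -/
theorem cj {g : M} (hg : Commute g t) : Mod (g * z * g⁻¹) t (cjs g Q) (π.comp (cenConj z g))
    (fun q v => R (g⁻¹ * q * g) v) := by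
  have c : IsConj z (g * z * g⁻¹) := isConj_iff.2 ⟨g, rfl⟩
  have f : g⁻¹ * t * g = t := by rw [mul_assoc, ← hg.eq, inv_mul_cancel_left]
  obtain ⟨a, a1, a2⟩ := m.nwc
  refine ⟨m.md.cj g, f.symm ▸ m.lt, ⟨g * a * g⁻¹, ?_, fun e => a2 ?_⟩, fun e => m.nc (c.trans e),
    fun u hu => (m.two u hu).imp_right (Or.imp_right c.symm.trans), m.s1, fun b h1 h2 => ?_, ?_⟩
  · rw [mem_cjs]; simpa [mul_assoc] using a1
  · simpa [mul_assoc] using congrArg (g⁻¹ * · * g) e
  · obtain ⟨h, h3, h4⟩ := m.s2 b h1 (c.trans h2)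
    refine ⟨h * g⁻¹, h3.mul_left hg.inv_left, ?_⟩
    rw [← h4]
    nth_rw 2 [← f]
    group
  · have e1 : centralizer ({g * z * g⁻¹} : Set M) = (centralizer {z}).map (MulAut.conj g).toMonoidHom := by
      ext x
      simp only [mem_centralizer_singleton_iff, mem_map_equiv, MulAut.conj_symm_apply]
      constructor <;> intro e
      · calc _ = g⁻¹ * (x * (g * z * g⁻¹)) * g := by group
          _ = _ := by rw [e]; group
      · calc _ = g * (g⁻¹ * x * g * z) * g⁻¹ := by group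
          _ = _ := by rw [e]; group
    have e2 : centralizer ({t} : Set M) = (centralizer {t}).map (MulAut.conj g).toMonoidHom := by
      ext x
      simp only [mem_centralizer_singleton_iff, mem_map_equiv, MulAut.conj_symm_apply]
      exact ⟨fun e => (hg.inv_left.mul_left e).mul_left hg, fun e => by
        simpa [mul_assoc] using ((hg.mul_left e).mul_left hg.inv_left).eq⟩
    rw [e1, e2, relIndex_map_map_of_injective _ _ (MulAut.conj g).injective]
    exact m.odd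

end Mod

end Cfsg.Agent.SBM
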