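import Cfsg.Agent.SBM.Base

/-! Project SBM: calculus of the partial embedding `θ`. -/

set_option autoImplicit false

namespace Cfsg.Agent.SBM

open Subgroup H15 H38.MT

variable {M : Type*} [Group M] {z t : M} {Q : Subgroup M}
  {π : centralizer ({z} : Set M) →* Spor.Co1} {R : M → leechLattice → Prop}
  {G : Type*} [Group G] {θ : M → G}

theorem N0.of_comm {a : M} (h1 : Commute a t) (h2 : Commute a z) : N0 z t a :=
  ⟨h2, .inl (by rw [h1.eq, mul_inv_cancel_right])⟩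

theorem N0.one : N0 z t 1 := .of_comm (Commute.one_left t) (Commute.one_left z)

theorem Ov.eq {u : M} {k k' : Co0} (h : Ov π u k) (h' : Ov π u k') : k' = k ∨ k' = negC * k :=
  co1_eq_iff.1 (h.2.trans h'.2.symm)

namespace Mod

variable (m : Mod z t Q π R)
include m

theorem n0_mul {a b : M} (ha : N0 z t a) (hb : N0 z t b) : N0 z t (a * b) := by
  refine ⟨ha.1.mul_left hb.1, ?_⟩
  rw [show a * b * t * (a * b)⁻¹ = a * (b * t * b⁻¹) * a⁻¹ by group]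
  rcases hb.2 with e | e <;> rw [e]
  · exact ha.2
  · rw [← conj_mul, ha.1.eq, mul_inv_cancel_right]
    rcases ha.2 with e | e <;> rw [e]
    · exact .inr rfl
    · exact .inl (by rw [mul_assoc, m.md.lx.sq, mul_one])

theorem n0_inv {a : M} (ha : N0 z t a) : N0 z t a⁻¹ := by
  refine ⟨ha.1.inv_left, ha.2.imp (fun e => by nth_rw 1 [← e]; group) fun e => ?_⟩
  have : t = a * t * a⁻¹ * z := by rw [e, mul_assoc, m.md.lx.sq, mul_one]
  nth_rw 1 [this]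
  calc _ = t * (a⁻¹ * (z * a)) := by group
    _ = _ := by rw [← ha.1.eq]; group

theorem n0_Q {q : M} (hq : q ∈ Q) : N0 z t q :=
  ⟨m.md.lx.cen q hq, (m.md.lx.comm q hq t m.tQ).imp_right fun e => e.trans m.tz.symm⟩

theorem exists_n0 : ∃ n ∈ Q, n * t * n⁻¹ = t * z := by
  obtain ⟨n, hn, e⟩ := m.md.lx.exists_conj m.tQ m.t1 fun e => m.nc (e ▸ IsConj.refl _)
  exact ⟨n, hn, e.trans m.tz.symm⟩

end Mod

namespace St

variable (s : St z t θ)
include s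

theorem one : θ 1 = 1 := by
  have := s.mulH (Commute.one_left t) (Commute.one_left t)
  rw [one_mul] at this
  exact left_eq_mul.1 this

theorem invH {a : M} (ha : Commute a t) : θ a⁻¹ = (θ a)⁻¹ :=
  eq_inv_of_mul_eq_one_left (by rw [← s.mulH ha.inv_left ha, inv_mul_cancel, s.one])

theorem cjH {a b : M} (ha : Commute a t) (hb : Commute b t) : θ (a * b * a⁻¹) = θ a * θ b * (θ a)⁻¹ := by
  rw [s.mulH (ha.mul_left hb) ha.inv_left, s.mulH ha hb, s.invH ha]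

theorem eqH {a b : M} (ha : Commute a t) (hb : Commute b t) (e : θ a = θ b) : a = b :=
  mul_inv_eq_one.1 (s.injH (ha.mul_left hb.inv_left) (by
    rw [s.mulH ha hb.inv_left, s.invH hb, e, mul_inv_cancel]))

theorem commH {a b : M} (ha : Commute a t) (hb : Commute b t) : Commute (θ a) (θ b) ↔ Commute a b :=
  ⟨fun e => s.eqH (ha.mul_left hb) (hb.mul_left ha) (by rw [s.mulH ha hb, s.mulH hb ha, e.eq]),
    fun e => by rw [Commute, SemiconjBy, ← s.mulH ha hb, ← s.mulH hb ha, e.eq]⟩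

theorem ct {a : M} (ha : Commute a t) : Commute (θ a) (θ t) := (s.commH ha (Commute.refl t)).2 ha

variable (m : Mod z t Q π R)
include m

theorem invN {a : M} (ha : N0 z t a) : θ a⁻¹ = (θ a)⁻¹ :=
  eq_inv_of_mul_eq_one_left (by rw [← s.mulN (m.n0_inv ha) ha, inv_mul_cancel, s.one])

theorem cjN {a b : M} (ha : N0 z t a) (hb : N0 z t b) : θ (a * b * a⁻¹) = θ a * θ b * (θ a)⁻¹ := by
  rw [s.mulN (m.n0_mul ha hb) (m.n0_inv ha), s.mulN ha hb, s.invN m ha]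

theorem eqN {a b : M} (ha : N0 z t a) (hb : N0 z t b) (e : θ a = θ b) : a = b :=
  mul_inv_eq_one.1 (s.injN (m.n0_mul ha (m.n0_inv hb)) (by
    rw [s.mulN ha (m.n0_inv hb), s.invN m hb, e, mul_inv_cancel]))

theorem commN {a b : M} (ha : N0 z t a) (hb : N0 z t b) : Commute (θ a) (θ b) ↔ Commute a b :=
  ⟨fun e => s.eqN m (m.n0_mul ha hb) (m.n0_mul hb ha) (by rw [s.mulN ha hb, s.mulN hb ha, e.eq]),
    fun e => by rw [Commute, SemiconjBy, ← s.mulN ha hb, ← s.mulN hb ha, e.eq]⟩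

theorem mulQ {a b : M} (ha : a ∈ Q) (hb : b ∈ Q) : θ (a * b) = θ a * θ b :=
  s.mulN (m.n0_Q ha) (m.n0_Q hb)

theorem eqQ {a b : M} (ha : a ∈ Q) (hb : b ∈ Q) (e : θ a = θ b) : a = b :=
  s.eqN m (m.n0_Q ha) (m.n0_Q hb) e

theorem cz {a : M} (ha : N0 z t a) : Commute (θ a) (θ z) :=
  (s.commN m ha (m.n0_Q m.md.lx.mem)).2 ha.1

theorem z2 : θ z * θ z = 1 := by rw [← s.mulQ m m.md.lx.mem m.md.lx.mem, m.md.lx.sq, s.one]

theorem c_tz : IsConj (θ t) (θ t * θ z) := by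
  obtain ⟨n, hn, e⟩ := m.exists_n0
  exact isConj_iff.2 ⟨θ n, by rw [← s.cjN m (m.n0_Q hn) (m.n0_Q m.tQ), e, s.mulQ m m.tQ m.md.lx.mem]⟩

theorem surjA {g : G} (h1 : Commute g (θ t)) (h2 : Commute g (θ z)) :
    ∃ a, Commute a t ∧ Commute a z ∧ θ a = g := by
  obtain ⟨a, ha, rfl⟩ := s.surjH h1
  exact ⟨a, ha, (s.commH ha m.tz.symm).1 h2, rfl⟩

theorem surjN {g : G} (h1 : Commute g (θ z)) (h2 : g * θ t * g⁻¹ = θ t ∨ g * θ t * g⁻¹ = θ t * θ z) :
    ∃ a, N0 z t a ∧ θ a = g := by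
  rcases h2 with e | e
  · obtain ⟨a, a1, a2, rfl⟩ := s.surjA m (mul_inv_eq_iff_eq_mul.1 e) h1
    exact ⟨a, .of_comm a1 a2, rfl⟩
  obtain ⟨n, hn, en⟩ := m.exists_n0
  have e' : θ n * θ t * (θ n)⁻¹ = θ t * θ z := by
    rw [← s.cjN m (m.n0_Q hn) (m.n0_Q m.tQ), en, s.mulQ m m.tQ m.md.lx.mem]
  obtain ⟨a, a1, a2, ea⟩ := s.surjA m (g := (θ n)⁻¹ * g) (by
    change _ * _ = _ * _
    calc _ = (θ n)⁻¹ * (g * θ t * g⁻¹) * g := by group
      _ = _ := by rw [e, ← e']; group) ((s.cz m (m.n0_Q hn)).inv_left.mul_left h1)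
  exact ⟨n * a, m.n0_mul (m.n0_Q hn) (.of_comm a1 a2), by
    rw [s.mulN (m.n0_Q hn) (.of_comm a1 a2), ea, mul_inv_cancel_left]⟩

end St

end Cfsg.Agent.SBM
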