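import Cfsg.Agent.SBM.Span
import Cfsg.Agent.SBM.StB

set_option autoImplicit false

namespace Cfsg.Agent.SBM

open Subgroup H15 H38.MT

variable {M : Type*} [Group M] [Finite M] {z t : M} {Q : Subgroup M}
  {π : centralizer ({z} : Set M) →* Spor.Co1} {R : M → leechLattice → Prop}
  {G : Type*} [Group G] [Finite G] {θ : M → G}

namespace Da1

/-- the inner product of two minimal vectors adjacent to `v` is visible in the group -/
theorem gram (m : Mod z t Q π R) {x1 x2 c : M} {u1 u2 v : leechLattice} (r1 : R x1 u1) (r2 : R x2 u2)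
    (r : R c v) (n1 : sqNorm (u1 : Vec) = 32) (n2 : sqNorm (u2 : Vec) = 32) (n : sqNorm (v : Vec) = 32)
    (d1 : dotInt (u1 : Vec) v = 16) (d2 : dotInt (u2 : Vec) v = 16) {d : ℤ} (hd : dotInt (u1 : Vec) u2 = d) :
    (d = 32 ∨ d = 16 ∨ d = 8 ∨ d = 0 ∨ d = -16) ∧ (d = 32 ↔ (x1 * x2 = 1 ∨ x1 * x2 = z)) ∧
      (d = -16 ↔ (x1 * x2 * c = 1 ∨ x1 * x2 * c = z)) ∧ (16 ∣ d ↔ Commute x1 x2) ∧
      (IsConj t (x1 * x2) ↔ d = 16 ∨ d = -16) := by
  have n3 : sqNorm ((v - u2 : leechLattice) : Vec) = 32 := by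
    rw [AddSubgroup.coe_sub, sqNorm_sub, dot_comm]; omega
  have d3 : dotInt (u1 : Vec) ((v - u2 : leechLattice) : Vec) = 16 - d := by
    rw [AddSubgroup.coe_sub, dot_sub_right]; omega
  have s1 : u1 = u2 → d = 32 := fun e => by rw [← hd, ← e, dot_self, n1]
  have s2 : u1 ≠ -u2 := fun e => by rw [e, AddSubgroup.coe_neg, dot_neg_left] at d1; omega
  have s3 : u1 = v - u2 → d = -16 := fun e => by rw [← e, dot_self] at d3; omega
  have s4 : u1 ≠ -(v - u2) := fun e => by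
    rw [e, neg_sub, AddSubgroup.coe_sub, dot_sub_left, dot_self] at d1; omega
  obtain ⟨a, ha⟩ := eight_dvd_dot u1.2 u2.2
  refine ⟨?_, ⟨fun e => ?_, fun e => ?_⟩, ⟨fun e => ?_, fun e => ?_⟩, hd ▸ (m.md.comm_iff r1 r2).symm,
    hd ▸ m.adj r1 r2 n1 n2⟩
  · rcases dot_min n1 n2 with e | e | e
    · exact .inl (s1 e)
    · exact absurd e s2
    rcases dot_min n1 n3 with e' | e' | e'
    · have := s3 e'; omega
    · exact absurd e' s4
    · omega
  · have : u1 = u2 := sub_eq_zero.1 (Subtype.ext (sqNorm_eq_zero (by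
      rw [AddSubgroup.coe_sub, sqNorm_sub]; omega)))
    exact (m.md.one_iff (m.md.mul r1 r2)).2 ⟨u2, by rw [this]⟩
  · obtain ⟨w, hw⟩ := (m.md.one_iff (m.md.mul r1 r2)).1 e
    exact s1 ((Cg.pm ⟨w - u2, by rw [eq_sub_of_add_eq hw]; abel⟩ n1 n2).resolve_right s2)
  · have : u1 = v - u2 := sub_eq_zero.1 (Subtype.ext (sqNorm_eq_zero (by
      rw [AddSubgroup.coe_sub, sqNorm_sub]; omega)))
    exact (m.md.one_iff (m.md.mul (m.md.mul r1 r2) r)).2 ⟨v, by rw [this]; abel⟩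
  · obtain ⟨w, hw⟩ := (m.md.one_iff (m.md.mul (m.md.mul r1 r2) r)).1 e
    exact s3 ((Cg.pm ⟨w - v, by rw [add_assoc] at hw; rw [eq_sub_of_add_eq hw]; abel⟩ n1 n3).resolve_right s4)

/-- `γ` conjugates `θ q` to `θ q'` -/
structure T (t : M) (Q : Subgroup M) (θ : M → G) (γ : G) (q q' : M) : Prop where
  mem : q ∈ Q
  mem' : q' ∈ Q
  c : Commute q t
  c' : Commute q' t
  e : θ q' = γ * θ q * γ⁻¹

variable {γ : G} {p p' q q' : M}

omit [Finite M] [Finite G] in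
theorem T.mul (s : St z t θ) (h : T t Q θ γ p p') (k : T t Q θ γ q q') : T t Q θ γ (p * q) (p' * q') :=
  ⟨mul_mem h.mem k.mem, mul_mem h.mem' k.mem', h.c.mul_left k.c, h.c'.mul_left k.c', by
    rw [s.mulH h.c k.c, s.mulH h.c' k.c', h.e, k.e, conj_mul]⟩

omit [Finite M] [Finite G] in
theorem T.eq (s : St z t θ) (h : T t Q θ γ p p') (k : T t Q θ γ q q') : p = q ↔ p' = q' :=
  ⟨fun e => s.eqH h.c' k.c' (by rw [h.e, k.e, e]), fun e => s.eqH h.c k.c
    ((MulAut.conj γ).injective (h.e.symm.trans (e ▸ k.e)))⟩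

omit [Finite M] [Finite G] in
theorem T.conj (f : Fu z t Q θ) (h : T t Q θ γ p p') : IsConj t p ↔ IsConj t p' := by
  rw [← f.fus h.c, ← f.fus h.c', h.e]
  exact ⟨fun e => e.trans (isConj_iff.2 ⟨γ, rfl⟩), fun e => e.trans (isConj_iff.2 ⟨γ, rfl⟩).symm⟩

omit [Finite G] in
theorem exists_swap (m : Mod z t Q π R) (s : St z t θ) (f : Fu z t Q θ) {s0 : M} (r0 : R s0 bb) :
    ∃ γ, Commute γ (θ z) ∧ γ * θ s0 * γ⁻¹ = θ t ∧ γ * θ t * γ⁻¹ = θ s0 := by
  have c0 : Commute s0 t := (m.comm_t r0).2 (by rw [Pp, dot_comm, dot_uu_bb])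
  have cz : Commute z t := m.tz.symm
  have tt := Commute.refl t
  obtain ⟨g, g1, g2⟩ := f.pair ((f.fus c0).2 (m.of32 r0 norm_bb)) (by
    rw [← s.mulH c0 cz, m.md.lx.cen s0 (m.md.mem r0)]
    exact (f.fus (cz.mul_left c0)).2 (m.of32 (m.md.zmul r0) norm_bb))
  have cj : ∀ {x}, IsConj (θ t) x → IsConj (θ t) (g * x * g⁻¹) := fun e => e.trans (isConj_iff.2 ⟨g, rfl⟩)
  obtain ⟨y, yQ, yt, y2, ey⟩ := f.q5 (y := g * θ t * g⁻¹)
    (by nth_rw 2 [← g2]; exact (s.ct c0).symm.map (MulAut.conj g)) (cj (IsConj.refl _)) (by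
      have := cj (s.c_tz m)
      rwa [← conj_mul, g1.eq, mul_inv_cancel_right] at this)
  have ty : IsConj t (t * y) := (f.fus (tt.mul_left yt)).1 (by
    rw [s.mulH tt yt, ey]
    nth_rw 2 [← g2]
    rw [conj_mul, ← s.mulH c0 tt]
    exact cj ((f.fus (c0.mul_left tt)).2 ((m.adj r0 m.lt norm_bb sqNorm_uu).2
      (.inl (by rw [dot_comm, dot_uu_bb])))))
  obtain ⟨η, r, n, d⟩ : ∃ η : leechLattice, R y η ∧ sqNorm (η : Vec) = 32 ∧ dotInt (uu : Vec) η = -16 := by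
    obtain ⟨η, r, n⟩ := m.lab32 yQ y2
    rcases (m.adj m.lt r sqNorm_uu n).1 ty with e | e
    · exact ⟨-η, m.md.neg r, by rw [AddSubgroup.coe_neg, sqNorm_neg, n],
        by rw [AddSubgroup.coe_neg, dot_neg_right, e]⟩
    · exact ⟨η, r, n, e⟩
  obtain ⟨k, k1, k2⟩ := trans_pair_m16 uu η uu (-bb) sqNorm_uu sqNorm_uu n
    (by rw [AddSubgroup.coe_neg, sqNorm_neg, norm_bb]) d (by rw [AddSubgroup.coe_neg, dot_neg_right, dot_uu_bb])
  have n0 : ∀ {v : leechLattice}, sqNorm (v : Vec) = 32 → ¬ Cg v 0 := fun e ⟨w, e'⟩ =>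
    short_ne_two (by omega) (by omega) (e'.trans (zero_add _))
  obtain ⟨c, o, e1, e2⟩ := lift2 m.md m.lt r (k1.symm ▸ m.lt) (k2.symm ▸ m.md.neg r0) (n0 sqNorm_uu) (n0 n)
    fun e => by
      rcases e.pm sqNorm_uu n with e | e
      · rw [← e, dot_self, sqNorm_uu] at d; omega
      · rw [e, AddSubgroup.coe_neg, dot_neg_left, dot_self, n] at d; omega
  have ct : Commute c t := mul_inv_eq_iff_eq_mul.1 e1
  refine ⟨θ c * g, ((s.commH ct cz).2 o.comm).mul_left g1, ?_, ?_⟩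
  · calc _ = θ c * (g * θ s0 * g⁻¹) * (θ c)⁻¹ := by group
      _ = _ := by rw [g2, ← s.cjH ct tt, e1]
  · calc _ = θ c * (g * θ t * g⁻¹) * (θ c)⁻¹ := by group
      _ = _ := by rw [← ey, ← s.cjH ct yt, e2]

end Da1

open Da1 in
theorem Mod.da1 (m : Mod z t Q π R) (s : St z t θ) (f : Fu z t Q θ) :
    ∃ (γ : G) (ψ : Co0), Commute γ (θ z) ∧ ψ • uu = bb ∧ ψ • bb = uu ∧
      ∀ q v, R q v → Pp v uu → Pp v bb → ∃ q', R q' (ψ • v) ∧ θ q' = γ * θ q * γ⁻¹ := by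
  obtain ⟨s0, r0⟩ := m.md.ex' bb
  obtain ⟨γ, g0, g1, g2⟩ := exists_swap m s f r0
  have dbu : dotInt (bb : Vec) uu = 16 := by rw [dot_comm, dot_uu_bb]
  have c0 : Commute s0 t := (m.comm_t r0).2 (by rw [Pp, dbu])
  have cz : Commute z t := m.tz.symm
  have tt := Commute.refl t
  have T1 : T t Q θ γ 1 1 := ⟨one_mem _, one_mem _, .one_left t, .one_left t, by simp [s.one]⟩
  have Tz : T t Q θ γ z z := ⟨m.md.lx.mem, m.md.lx.mem, cz, cz, by rw [g0.eq, mul_inv_cancel_right]⟩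
  have Tt : T t Q θ γ t s0 := ⟨m.tQ, m.md.mem r0, tt, c0, g2.symm⟩
  have Ts : T t Q θ γ s0 t := ⟨m.md.mem r0, m.tQ, c0, tt, g1.symm⟩
  have Z : ∀ {p p'}, T t Q θ γ p p' → ((p = 1 ∨ p = z) ↔ (p' = 1 ∨ p' = z)) := fun h =>
    or_congr (h.eq s T1) (h.eq s Tz)
  let Rel : leechLattice × leechLattice → Prop := fun p => ∃ q q', R q p.1 ∧ R q' p.2 ∧ T t Q θ γ q q'
  let S : Set (leechLattice × leechLattice) := {p | sqNorm (p.1 : Vec) = 32 ∧ dotInt (p.1 : Vec) uu = 16 ∧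
    sqNorm (p.2 : Vec) = 32 ∧ dotInt (p.2 : Vec) bb = 16 ∧ Rel p}
  have rel : ∀ p ∈ AddSubgroup.closure S, Rel p := fun p hp => by
    induction hp using AddSubgroup.closure_induction with
    | mem p hp => exact hp.2.2.2.2
    | zero => exact ⟨1, 1, by simpa using m.md.two 0, by simpa using m.md.two 0, T1⟩
    | add p p' _ _ h h' =>
      obtain ⟨a, a', a1, a2, a3⟩ := h
      obtain ⟨b, b', b1, b2, b3⟩ := h'
      exact ⟨_, _, m.md.mul a1 b1, m.md.mul a2 b2, a3.mul s b3⟩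
    | neg p _ h =>
      obtain ⟨a, a', a1, a2, a3⟩ := h
      exact ⟨a, a', m.md.neg a1, m.md.neg a2, a3⟩
  have gr : ∀ p ∈ AddSubgroup.closure S, ∀ p' ∈ AddSubgroup.closure S,
      dotInt (p.2 : Vec) p'.2 = dotInt (p.1 : Vec) p'.1 := fun p hp p' hp' => by
    induction hp, hp' using AddSubgroup.closure_induction₂ with
    | mem p p' hp hp' =>
      obtain ⟨n1, d1, n2, d2, a, a', a1, a2, a3⟩ := hp
      obtain ⟨n1', d1', n2', d2', b, b', b1, b2, b3⟩ := hp'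
      obtain ⟨x0, x1, x2, x3, x4⟩ := gram m a1 b1 m.lt n1 n1' sqNorm_uu d1 d1' rfl
      obtain ⟨y0, y1, y2, y3, y4⟩ := gram m a2 b2 r0 n2 n2' norm_bb d2 d2' rfl
      have e1 := (x1.trans (Z (a3.mul s b3))).trans y1.symm
      have e2 := (x2.trans (Z ((a3.mul s b3).mul s Tt))).trans y2.symm
      have e3 := (x3.trans ((a3.mul s b3).eq s (b3.mul s a3))).trans y3.symm
      have e4 := (x4.symm.trans ((a3.mul s b3).conj f)).trans y4
      omega
    | zero_left => simp [dotInt]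
    | zero_right => simp [dotInt]
    | add_left a b c _ _ _ h h' => simp only [Prod.fst_add, Prod.snd_add, AddSubgroup.coe_add, dot_add_left, h, h']
    | add_right a b c _ _ _ h h' =>
      simp only [Prod.fst_add, Prod.snd_add, AddSubgroup.coe_add, dot_add_right, h, h']
    | neg_left a b _ _ h => simp only [Prod.fst_neg, Prod.snd_neg, AddSubgroup.coe_neg, dot_neg_left, h]
    | neg_right a b _ _ h => simp only [Prod.fst_neg, Prod.snd_neg, AddSubgroup.coe_neg, dot_neg_right, h]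
  have sp : ∀ v, Pp v uu → Pp v bb → ∃ v', (v, v') ∈ AddSubgroup.closure S := fun v h1 h2 => by
    obtain ⟨p, hp, rfl⟩ := span ((AddSubgroup.closure S).map (AddMonoidHom.fst _ _)) (fun u n d hb => by
      obtain ⟨x, r⟩ := m.md.ex' u
      have xt : Commute x t := (m.comm_t r).2 (by rw [Pp, d])
      have xs : Commute x s0 := (m.md.comm_iff r r0).2 hb
      have cj : ∀ {y}, Commute y t → IsConj t y → IsConj (θ t) (γ * θ y * γ⁻¹) := fun e e' =>
        ((f.fus e).2 e').trans (isConj_iff.2 ⟨γ, rfl⟩)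
      obtain ⟨x', q1, q2, q3, q4⟩ := f.q5 (y := γ * θ x * γ⁻¹)
        (by rw [← g1]; exact ((s.commH xt c0).2 xs).map (MulAut.conj γ)) (cj xt (m.of32 r n)) (by
          have := cj (cz.mul_left xt) (m.of32 (m.md.zmul r) n)
          rwa [← m.md.lx.cen x (m.md.mem r), s.mulH xt cz, ← conj_mul, g0.eq, mul_inv_cancel_right] at this)
      have Tx : T t Q θ γ x x' := ⟨m.md.mem r, q1, xt, q2, q4⟩
      obtain ⟨u', r', n'⟩ := m.lab32 q1 q3
      rcases (m.adj r' r0 n' norm_bb).1 (((Tx.mul s Tt).conj f).1 ((m.adj r m.lt n sqNorm_uu).2 (.inl d)))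
        with e | e
      · exact ⟨(u, u'), AddSubgroup.subset_closure ⟨n, d, n', e, x, x', r, r', Tx⟩, rfl⟩
      · exact ⟨(u, -u'), AddSubgroup.subset_closure ⟨n, d, by rw [AddSubgroup.coe_neg, sqNorm_neg, n'],
          by rw [AddSubgroup.coe_neg, dot_neg_left, e]; rfl, x, x', r, m.md.neg r', Tx⟩, rfl⟩) h1 h2
    exact ⟨p.2, hp⟩
  obtain ⟨ψ, hψ⟩ := ll (AddSubgroup.closure S) (fun p hp => by rw [← dot_self, gr p hp p hp, dot_self])
    (fun p hp ⟨w, e⟩ => by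
      obtain ⟨q, q', a1, a2, a3⟩ := rel p hp
      obtain ⟨w', e'⟩ := (m.md.one_iff a2).1 ((Z a3).1 ((m.md.one_iff a1).2 ⟨w, e.trans (zero_add _)⟩))
      exact ⟨w', e'.trans (zero_add _).symm⟩)
    fun x => sp _ ((pp_add _ _ _).2 Iff.rfl) ((pp_add _ _ _).2 Iff.rfl)
  have e1 : ψ • bb = uu := hψ (bb, uu) (AddSubgroup.subset_closure
    ⟨norm_bb, dbu, sqNorm_uu, dot_uu_bb, s0, t, r0, m.lt, Ts⟩)
  have e2 : ψ • (uu + -bb) = bb + -uu := hψ (uu + -bb, bb + -uu) (AddSubgroup.subset_closure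
    ⟨by decide +kernel, by decide +kernel, by decide +kernel, by decide +kernel, _, _,
      m.md.mul m.lt (m.md.neg r0), m.md.mul r0 (m.md.neg m.lt), Tt.mul s Ts⟩)
  rw [co0_smul_add, co0_smul_neg, e1, add_left_inj] at e2
  refine ⟨γ, ψ, g0, e2, e1, fun q v r h1 h2 => ?_⟩
  obtain ⟨v', hv⟩ := sp v h1 h2
  obtain ⟨a, a', a1, a2, a3⟩ := rel _ hv
  rw [show ψ • v = v' from hψ _ hv]
  rcases m.md.uniq a1 r with rfl | rfl
  exacts [⟨a', a2, a3.e⟩, ⟨_, m.md.zmul a2, (Tz.mul s a3).e⟩]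

end Cfsg.Agent.SBM
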