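import Cfsg.Agent.SBM.StB

set_option autoImplicit false

namespace Cfsg.Agent.SBM

open Subgroup H15 H38.MT

variable {M : Type*} [Group M] [Finite M] {z t : M} {Q : Subgroup M}
  {π : centralizer ({z} : Set M) →* Spor.Co1} {R : M → leechLattice → Prop}
  {G : Type*} [Group G] [Finite G] {θ : M → G}

/-- a class orthogonal to `a^⊥ ∩ b^⊥` lies in the span of `a`, `b` -/
theorem perp2 (m : MD z Q π R) (a b : leechLattice) {f : leechLattice} (h : ∀ v, Pp v a → Pp v b → Pp v f) :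
    Cg f 0 ∨ Cg f a ∨ Cg f b ∨ Cg f (a + b) := by
  let S : Subgroup M :=
    { carrier := {q | ∃ i j : ℤ, R q (i • a + j • b)}
      one_mem' := ⟨0, 0, by simpa using m.two 0⟩
      mul_mem' := by
        rintro p q ⟨i, j, e⟩ ⟨i', j', e'⟩
        exact ⟨i + i', j + j', by convert m.mul e e' using 1; module⟩
      inv_mem' := fun ⟨i, j, e⟩ => ⟨i, j, m.inv e⟩ }
  obtain ⟨d, r⟩ := m.ex' f
  obtain ⟨p, rp⟩ := m.ex' a
  obtain ⟨q, rq⟩ := m.ex' b
  by_cases hd : d ∈ S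
  · obtain ⟨i, j, e⟩ := hd
    obtain ⟨w, e⟩ := m.congr e r
    obtain ⟨i, rfl | rfl⟩ := Int.even_or_odd' i <;> obtain ⟨j, rfl | rfl⟩ := Int.even_or_odd' j
    exacts [.inl ⟨w + i • a + j • b, by rw [e]; module⟩,
      .inr (.inr (.inl ⟨w + i • a + j • b, by rw [e]; module⟩)),
      .inr (.inl ⟨w + i • a + j • b, by rw [e]; module⟩),
      .inr (.inr (.inr ⟨w + i • a + j • b, by rw [e]; module⟩))]
  obtain ⟨c, hc, c1, c2⟩ := m.lx.sep S (fun _ ⟨_, _, e⟩ => m.mem e) ⟨0, 0, by simpa using m.zed⟩ d (m.mem r) hd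
  obtain ⟨v, rv⟩ := m.ex c hc
  rw [(m.comm_iff rv r).2 (h v ((m.comm_iff rv rp).1 (c1 p ⟨1, 0, by simpa using rp⟩))
    ((m.comm_iff rv rq).1 (c1 q ⟨0, 1, by simpa using rq⟩))), mul_inv_cancel_right] at c2
  exact absurd (right_eq_mul.1 c2) m.lx.ne

theorem Mod.db1 (m : Mod z t Q π R) (s : St z t θ) {γ : G} {ψ : Co0} (h0 : Commute γ (θ z))
    (h1 : ψ • uu = bb) (h2 : ψ • bb = uu)
    (h : ∀ q v, R q v → Pp v uu → Pp v bb → ∃ q', R q' (ψ • v) ∧ θ q' = γ * θ q * γ⁻¹)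
    (hQ : ∀ q ∈ Q, ∃ q' ∈ Q, θ q' = γ * θ q * γ⁻¹) :
    ∃ (n : G) (k : Co0), Commute n (θ z) ∧ Act R θ n k ∧
      dotInt ((k • uu : leechLattice) : Vec) (uu : Vec) = 16 := by
  have md := m.md
  let T : M → M → Prop := fun q q' => q ∈ Q ∧ q' ∈ Q ∧ θ q' = γ * θ q * γ⁻¹
  have Tm : ∀ {p p' q q'}, T p p' → T q q' → T (p * q) (p' * q') := fun a b =>
    ⟨mul_mem a.1 b.1, mul_mem a.2.1 b.2.1, by
      rw [s.mulQ m a.1 b.1, s.mulQ m a.2.1 b.2.1, a.2.2, b.2.2, conj_mul]⟩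
  have Te : ∀ {p p' q q'}, T p p' → T q q' → (p = q ↔ p' = q') := fun a b =>
    ⟨fun e => s.eqQ m a.2.1 b.2.1 (by rw [a.2.2, b.2.2, e]), fun e => s.eqQ m a.1 b.1
      ((MulAut.conj γ).injective (a.2.2.symm.trans (e ▸ b.2.2)))⟩
  have T1 : T 1 1 := ⟨one_mem _, one_mem _, by simp [s.one]⟩
  have Tz : T z z := ⟨md.lx.mem, md.lx.mem, by rw [h0.eq, mul_inv_cancel_right]⟩
  have Ts : ∀ q' ∈ Q, ∃ q, T q q' := fun q' hq' => by
    choose σ σ1 σ2 using hQ
    obtain ⟨q, e⟩ := (Finite.injective_iff_surjective (f := fun q : Q => (⟨σ q q.2, σ1 q q.2⟩ : Q))).1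
      (fun p q e => Subtype.ext ((Te ⟨p.2, σ1 p p.2, σ2 p p.2⟩ ⟨q.2, σ1 q q.2, σ2 q q.2⟩).2
        (congrArg Subtype.val e))) ⟨q', hq'⟩
    exact ⟨q, q.2, hq', by rw [← σ2 q q.2]; exact congrArg θ (congrArg Subtype.val e).symm⟩
  let Γ : AddSubgroup (leechLattice × leechLattice) :=
    { carrier := {p | ∃ q q', T q q' ∧ R q p.1 ∧ R q' (ψ • (p.1 + p.2))}
      zero_mem' := ⟨1, 1, T1, by simpa using md.two 0, by simpa [co0_smul_zero] using md.two 0⟩
      add_mem' := by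
        rintro p p' ⟨a, a', a1, a2, a3⟩ ⟨b, b', b1, b2, b3⟩
        exact ⟨_, _, Tm a1 b1, md.mul a2 b2, by
          convert md.mul a3 b3 using 1
          rw [← co0_smul_add, Prod.fst_add, Prod.snd_add, add_add_add_comm]⟩
      neg_mem' := by
        rintro p ⟨a, a', a1, a2, a3⟩
        exact ⟨a, a', a1, md.neg a2, by
          convert md.neg a3 using 1
          rw [← co0_smul_neg, neg_add]; rfl⟩ }
  have use : ∀ {x f q q'}, (x, f) ∈ Γ → T q q' → R q x → R q' (ψ • (x + f)) := by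
    rintro x f q q' ⟨a, a', a1, a2, a3⟩ b r
    rcases md.uniq a2 r with e | e
    · rwa [(Te b a1).1 e]
    · rw [(Te b (Tm Tz a1)).1 e]; exact md.zmul a3
  have g0 : ∀ x, Pp x uu → Pp x bb → (x, 0) ∈ Γ := fun x e1 e2 => by
    obtain ⟨q, r⟩ := md.ex' x
    obtain ⟨q', r', e⟩ := h q x r e1 e2
    exact ⟨q, q', ⟨md.mem r, md.mem r', e⟩, r, by rwa [add_zero]⟩
  have nr : ∀ {x f}, (x, f) ∈ Γ → (32 : ℤ) ∣ sqNorm (f : Vec) → Pp x f := by
    rintro x f ⟨a, a', a1, a2, a3⟩ e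
    have e1 := ((md.sq_iff a2).symm.trans (Te (Tm a1 a1) T1)).trans (md.sq_iff a3)
    rw [co0_norm, AddSubgroup.coe_add, sqNorm_add] at e1
    have e2 := sixteen_dvd_sqNorm x.2
    have e3 := eight_dvd_dot x.2 f.2
    simp only [Pp] at *
    omega
  have ex : ∀ x, ∃ f, (x, f) ∈ Γ ∧ (f = 0 ∨ f = uu ∨ f = bb ∨ f = uu + bb) := fun x => by
    obtain ⟨q, r⟩ := md.ex' x
    obtain ⟨q', hq', e⟩ := hQ q (md.mem r)
    obtain ⟨y, r'⟩ := md.ex q' hq'
    have Tq : T q q' := ⟨md.mem r, hq', e⟩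
    have key : ∀ f, Cg (ψ⁻¹ • y + x) f → (x, f) ∈ Γ := fun f ⟨w, e⟩ => ⟨q, q', Tq, r, lab_cg md r' (by
      have : Cg (x + f) (ψ⁻¹ • y) := ⟨x - w, by rw [eq_sub_of_add_eq e]; abel⟩
      simpa using this.smul ψ)⟩
    rcases perp2 md uu bb (f := ψ⁻¹ • y + x) fun v e1 e2 => by
        obtain ⟨b, rb⟩ := md.ex' v
        obtain ⟨b', rb', eb⟩ := h b v rb e1 e2
        have Tb : T b b' := ⟨md.mem rb, md.mem rb', eb⟩
        have := ((md.comm_iff r rb).symm.trans (Te (Tm Tq Tb) (Tm Tb Tq))).trans (md.comm_iff r' rb')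
        refine ((pp_add _ _ _).2 ?_).symm
        rw [← pp_smul ψ, smul_inv_smul]
        exact this.symm with e | e | e | e
    exacts [⟨_, key _ e, .inl rfl⟩, ⟨_, key _ e, .inr (.inl rfl)⟩, ⟨_, key _ e, .inr (.inr (.inl rfl))⟩,
      ⟨_, key _ e, .inr (.inr (.inr rfl))⟩]
  have b1 : dotInt ((-lOdd : leechLattice) : Vec) uu = 16 := by decide +kernel
  have b2 : dotInt ((-lOdd : leechLattice) : Vec) bb = 8 := by decide +kernel
  generalize -lOdd = β at b1 b2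
  have a1 : dotInt ((ψ • β : leechLattice) : Vec) uu = 8 := by rw [← h2, co0_dot, b2]
  have a2 : dotInt ((ψ • β : leechLattice) : Vec) bb = 16 := by rw [← h1, co0_dot, b1]
  generalize ψ • β = α at a1 a2
  have n3 : sqNorm ((uu + bb : leechLattice) : Vec) = 96 := by decide +kernel
  obtain ⟨ε, ea, eb⟩ : ∃ ε : ℤ, (α, ε • bb) ∈ Γ ∧ (β, ε • uu) ∈ Γ := by
    obtain ⟨fa, ea, ca⟩ := ex α
    obtain ⟨fb, eb, cb⟩ := ex β
    have e := Γ.add_mem ea eb
    rcases ca with rfl | rfl | rfl | rfl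
    rotate_left
    · have := nr ea (by rw [sqNorm_uu]); rw [Pp] at this; omega
    rotate_left
    · have := nr ea (by rw [n3]; norm_num); rw [Pp, AddSubgroup.coe_add, dot_add_right] at this; omega
    all_goals rcases cb with rfl | rfl | rfl | rfl
    · exact ⟨0, by rwa [zero_smul], by rwa [zero_smul]⟩
    · have := nr e (by rw [zero_add, sqNorm_uu])
      rw [Pp, zero_add, AddSubgroup.coe_add, dot_add_left, a1, b1] at this; omega
    · have := nr eb (by rw [norm_bb]); rw [Pp] at this; omega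
    · have := nr eb (by rw [n3]; norm_num); rw [Pp, AddSubgroup.coe_add, dot_add_right] at this; omega
    · have := nr e (by rw [add_zero, norm_bb])
      rw [Pp, add_zero, AddSubgroup.coe_add, dot_add_left, a2, b2] at this; omega
    · exact ⟨1, by rwa [one_smul], by rwa [one_smul]⟩
    · have := nr eb (by rw [norm_bb]); rw [Pp] at this; omega
    · have := nr eb (by rw [n3]; norm_num); rw [Pp, AddSubgroup.coe_add, dot_add_right] at this; omega
  have str : ∀ (x : leechLattice) (i j : ℤ), dotInt (x : Vec) uu = 8 * i → dotInt (x : Vec) bb = 8 * j →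
      (x, ε • (i • bb + j • uu)) ∈ Γ := fun x i j e1 e2 => by
    have := Γ.add_mem (Γ.add_mem (g0 (x - i • α - j • β) (by
      simp only [Pp, AddSubgroup.coe_sub, AddSubgroup.coe_zsmul, dot_sub_left, dot_smul_left, e1, a1, b1]; omega)
      (by simp only [Pp, AddSubgroup.coe_sub, AddSubgroup.coe_zsmul, dot_sub_left, dot_smul_left, e2, a2, b2]
          omega)) (Γ.zsmul_mem ea i)) (Γ.zsmul_mem eb j)
    convert this using 1
    ext1
    · simp only [Prod.smul_mk, Prod.mk_add_mk]; abel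
    · simp only [Prod.smul_mk, Prod.mk_add_mk]; module
  obtain ⟨κ, k1, k2⟩ := trans_pair_m16 uu (-bb) uu (bb - uu) sqNorm_uu sqNorm_uu (by decide +kernel)
    (by decide +kernel) (by decide +kernel) (by decide +kernel)
  rw [co0_smul_neg, neg_eq_iff_eq_neg, neg_sub] at k2
  obtain ⟨c, c1, c2, o⟩ := m.lift_fix k1
  have cN : N0 z t c := .of_comm c1 c2
  refine ⟨γ * θ c * γ⁻¹, negC * (ψ * κ * ψ⁻¹), (h0.mul_left (s.cz m cN)).mul_left h0.inv_left,
    fun q v r => ?_, ?_⟩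
  · obtain ⟨p, Tp⟩ := Ts q (md.mem r)
    obtain ⟨x, rx⟩ := md.ex p Tp.1
    obtain ⟨i, ei⟩ := eight_dvd_dot x.2 uu.2
    obtain ⟨j, ej⟩ := eight_dvd_dot x.2 bb.2
    have rc := o.lab md rx
    obtain ⟨q', hq', e⟩ := hQ _ (md.mem rc)
    have r1 := use (str x i j ei ej) Tp rx
    have r2 := use (str (κ • x) i (i - j) (by rw [← k1, co0_dot, ei]) (by
      have : bb = κ • (uu - bb) := by rw [co0_smul_sub, k1, k2]; abel
      rw [this, co0_dot, AddSubgroup.coe_sub, dot_sub_right, ei, ej]; ring)) ⟨md.mem rc, hq', e⟩ rc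
    refine ⟨q', lab_cg md r2 ?_, by
      rw [e, s.cjN m cN (m.n0_Q Tp.1), Tp.2.2]; group⟩
    rw [mul_smul, negC_smul, mul_smul, mul_smul]
    refine (Cg.neg _).trans (Cg.smul ?_ ψ)
    have : Cg (ψ⁻¹ • v) (x + ε • (i • bb + j • uu)) := by
      simpa using Cg.smul (md.congr r1 r) ψ⁻¹
    refine (this.smul κ).trans ⟨ε • (j • uu - i • bb), ?_⟩
    simp only [co0_smul_add, co0_smul_zsmul, k1, k2]
    generalize κ • x = y
    module
  · rw [mul_smul, negC_smul, mul_smul, mul_smul, show ψ⁻¹ • uu = bb by rw [← h2, inv_smul_smul], k2,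
      co0_smul_sub, h1, h2]
    decide +kernel

end Cfsg.Agent.SBM
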