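import Cfsg.Agent.SBM.LatB
import Cfsg.Agent.SBM.StB

/-! Project SBM: the subgroup `N = 2^{1+24}.Co₁` of `C(θ z)`. -/

set_option autoImplicit false

namespace Cfsg.Agent.SBM

open Subgroup H15 H38.MT

variable {M : Type*} [Group M] [Finite M] {z t : M} {Q : Subgroup M}
  {π : centralizer ({z} : Set M) →* Spor.Co1} {R : M → leechLattice → Prop}
  {G : Type*} [Group G] [Finite G] {θ : M → G}

namespace Db2

omit [Group M] [Finite M] [Finite G] in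
theorem act_one : Act R θ 1 1 := fun q v h => ⟨q, by rwa [one_smul], by simp⟩

omit [Group M] [Finite M] [Finite G] in
theorem act_mul {n n' : G} {k k' : Co0} (h : Act R θ n k) (h' : Act R θ n' k') :
    Act R θ (n * n') (k * k') := fun q v hq => by
  obtain ⟨q1, r1, e1⟩ := h' q v hq
  obtain ⟨q2, r2, e2⟩ := h q1 _ r1
  exact ⟨q2, by rwa [mul_smul], by rw [e2, e1]; group⟩

omit [Group M] [Finite M] [Finite G] in
theorem act_pow {n : G} {k : Co0} (h : Act R θ n k) (i : ℕ) : Act R θ (n ^ i) (k ^ i) := by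
  induction i with
  | zero => rw [pow_zero, pow_zero]; exact act_one
  | succ i ih => rw [pow_succ, pow_succ]; exact act_mul ih h

omit [Finite M] [Finite G] in
theorem act_congr (m : Mod z t Q π R) {n : G} {k k' : Co0} (h : Act R θ n k)
    (e : (k : Spor.Co1) = k') : Act R θ n k' := by
  rcases co1_eq_iff.1 e with rfl | rfl
  · exact h
  · intro q v hq
    obtain ⟨q', r, e⟩ := h q v hq
    exact ⟨q', by rw [mul_smul, negC_smul]; exact m.md.neg r, e⟩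

omit [Finite M] [Finite G] in
theorem act_uniq (m : Mod z t Q π R) (s : St z t θ) {n : G} {k k' : Co0} (h : Act R θ n k)
    (h' : Act R θ n k') : (k : Spor.Co1) = k' := by
  refine QuotientGroup.eq.2 (mem_center_of_pm fun w hw => ?_)
  obtain ⟨q, hq⟩ := m.md.ex' w
  obtain ⟨q1, r1, e1⟩ := h q w hq
  obtain ⟨q2, r2, e2⟩ := h' q w hq
  obtain rfl := s.eqQ m (m.md.mem r1) (m.md.mem r2) (e1.trans e2.symm)
  have := Cg.pm (m.md.congr r1 r2) (by rw [co0_norm, hw]) (by rw [co0_norm, hw])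
  rw [mul_smul]
  rcases this with e | e <;> rw [e]
  · exact .inl (inv_smul_smul _ _)
  · exact .inr (by rw [co0_smul_neg, inv_smul_smul])

omit [Finite M] [Finite G] in
theorem act_n0 (m : Mod z t Q π R) (s : St z t θ) {a : M} {k : Co0} (ha : N0 z t a) (o : Ov π a k) :
    Act R θ (θ a) k := fun _ _ hq =>
  ⟨_, o.lab m.md hq, s.cjN m ha (m.n0_Q (m.md.mem hq))⟩

/-- the subgroup `N` -/
def NN (R : M → leechLattice → Prop) (θ : M → G) (z : M) : Subgroup G where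
  carrier := {n | Commute n (θ z) ∧ ∃ k, Act R θ n k}
  one_mem' := ⟨Commute.one_left _, 1, act_one⟩
  mul_mem' := fun ⟨a, _, a'⟩ ⟨b, _, b'⟩ => ⟨a.mul_left b, _, act_mul a' b'⟩
  inv_mem' := fun {n} ⟨a, k, a'⟩ => ⟨a.inv_left, k ^ (orderOf n - 1), by
    have e : n⁻¹ = n ^ (orderOf n - 1) := inv_eq_of_mul_eq_one_right (by
      rw [← pow_succ', Nat.sub_add_cancel (orderOf_pos n), pow_orderOf_eq_one])
    rw [e]; exact act_pow a' _⟩

omit [Finite M] in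
theorem n0_mem (m : Mod z t Q π R) (s : St z t θ) {a : M} (ha : N0 z t a) : θ a ∈ NN R θ z :=
  let ⟨k, o⟩ := ov_ex π (mem_centralizer_singleton_iff.2 ha.1.eq)
  ⟨s.cz m ha, k, act_n0 m s ha o⟩

omit [Finite M] [Finite G] in
theorem ker (m : Mod z t Q π R) (s : St z t θ) {n : G} (h0 : Commute n (θ z)) (h : Act R θ n 1) :
    ∃ q ∈ Q, θ q = n := by
  obtain ⟨q, r, e⟩ := h t uu m.lt
  rw [one_smul] at r
  obtain ⟨a, ha, rfl⟩ := s.surjN m h0 (by
    rw [← e]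
    rcases m.md.uniq m.lt r with rfl | rfl
    · exact .inl rfl
    · exact .inr (by rw [← m.tz.eq, s.mulQ m m.tQ m.md.lx.mem]))
  obtain ⟨k, o⟩ := ov_ex π (mem_centralizer_singleton_iff.2 ha.1.eq)
  exact ⟨a, Ov.one m.md ⟨o.1, (act_uniq m s h (act_n0 m s ha o)).trans o.2⟩, rfl⟩

omit [Finite M] in
theorem exists_pi (m : Mod z t Q π R) (s : St z t θ) :
    ∃ p : NN R θ z →* Spor.Co1, ∀ n (k : Co0), (k : Spor.Co1) = p n ↔ Act R θ n k := by
  choose κ hκ using fun n : NN R θ z => n.2.2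
  exact ⟨MonoidHom.mk' (fun n => (κ n : Spor.Co1)) fun a b => by
      rw [← QuotientGroup.mk_mul]; exact act_uniq m s (hκ (a * b)) (act_mul (hκ a) (hκ b)),
    fun n k => ⟨fun e => act_congr m (hκ n) e.symm, fun h => act_uniq m s h (hκ n)⟩⟩

/-- the embedding of `Q` -/
def io (m : Mod z t Q π R) (s : St z t θ) : Q →* NN R θ z :=
  MonoidHom.mk' (fun q => ⟨θ q, n0_mem m s (m.n0_Q q.2)⟩) fun a b => Subtype.ext (s.mulQ m a.2 b.2)

omit [Finite M] in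
theorem mem_io (m : Mod z t Q π R) (s : St z t θ) {n : NN R θ z} :
    n ∈ (io m s).range ↔ ∃ q ∈ Q, θ q = n :=
  ⟨fun ⟨q, e⟩ => ⟨q, q.2, congrArg Subtype.val e⟩, fun ⟨q, h, e⟩ => ⟨⟨q, h⟩, Subtype.ext e⟩⟩

omit [Finite M] in
theorem lx (m : Mod z t Q π R) (s : St z t θ) (hw : θ z ∈ NN R θ z) :
    H97.LX (io m s).range ⟨θ z, hw⟩ := by
  have L := m.md.lx
  refine ⟨(mem_io m s).2 ⟨z, L.mem, rfl⟩,
    fun e => L.ne (s.injN (m.n0_Q L.mem) (congrArg Subtype.val e)), Subtype.ext (s.z2 m),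
    fun a _ => Subtype.ext a.2.1.eq, ?_, ?_, fun g hg => ?_, fun g _ a ha => ?_,
    fun U hU hz a ha hn => ?_⟩
  · rintro _ ⟨a, rfl⟩ _ ⟨b, rfl⟩
    rw [← map_inv, ← map_mul, ← map_mul]
    rcases L.comm a a.2 b b.2 with e | e
    · exact .inl (congrArg _ (Subtype.ext e))
    · exact .inr ((congrArg _ (Subtype.ext e)).trans (map_mul (io m s) ⟨z, L.mem⟩ b))
  · rintro _ ⟨a, rfl⟩
    rw [← map_mul]
    rcases L.sqr a a.2 with e | e
    · exact .inl ((congrArg _ (Subtype.ext e)).trans (map_one _))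
    · exact .inr (congrArg (io m s) (Subtype.ext e : a * a = ⟨z, L.mem⟩))
  · have c : ∀ a ∈ Q, Commute (g : G) (θ a) := fun a ha =>
      congrArg Subtype.val (hg _ ⟨⟨a, ha⟩, rfl⟩)
    obtain ⟨q, hq, e⟩ := ker m s g.2.1 fun q v r =>
      ⟨q, by rwa [one_smul], by rw [(c q (m.md.mem r)).eq, mul_inv_cancel_right]⟩
    rcases L.large q fun a ha => (s.commN m (m.n0_Q hq) (m.n0_Q ha)).1 (e ▸ c a ha) with rfl | rfl
    · exact .inl (Subtype.ext (e.symm.trans s.one))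
    · exact .inr (Subtype.ext e.symm)
  · obtain ⟨q, hq, e⟩ := (mem_io m s).1 ha
    obtain ⟨v, r⟩ := m.md.ex q hq
    obtain ⟨k, hk⟩ := g.2.2
    obtain ⟨q', r', e'⟩ := hk q v r
    exact (mem_io m s).2 ⟨q', m.md.mem r', by rw [e', e]; rfl⟩
  · obtain ⟨a, rfl⟩ := ha
    obtain ⟨b, hb, b1, b2⟩ := L.sep ((U.comap (io m s)).map Q.subtype) (map_subtype_le _)
      ⟨⟨z, L.mem⟩, hz, rfl⟩ a a.2 fun ⟨x, hx, e⟩ => hn (by rwa [← (Subtype.ext e : x = a)])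
    refine ⟨io m s ⟨b, hb⟩, ⟨_, rfl⟩, fun u hu => ?_, ?_⟩
    · obtain ⟨u, rfl⟩ := hU hu
      rw [← map_mul, ← map_mul]
      exact congrArg _ (Subtype.ext (b1 u ⟨u, hu, rfl⟩))
    · rw [← map_inv, ← map_mul, ← map_mul]
      exact (congrArg _ (Subtype.ext b2)).trans (map_mul (io m s) ⟨z, L.mem⟩ a)

end Db2

open Db2 in
theorem Mod.db2 (m : Mod z t Q π R) (s : St z t θ) (f : Fu z t Q θ) {n : G} {k : Co0}
    (h0 : Commute n (θ z)) (h1 : Act R θ n k) (h2 : dotInt ((k • uu : leechLattice) : Vec) (uu : Vec) = 16) :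
    ∃ (N : Subgroup G) (hw : θ z ∈ N) (hc : θ t ∈ N) (Q' : Subgroup N)
      (π' : centralizer ({⟨θ z, hw⟩} : Set N) →* Spor.Co1) (R' : N → leechLattice → Prop),
      ND (θ t) (θ z) N hw hc Q' π' R' := by
  have L := m.md.lx
  have hw : θ z ∈ NN R θ z := n0_mem m s (m.n0_Q L.mem)
  obtain ⟨p, hp⟩ := exists_pi m s
  have inj : Function.Injective (io m s) := fun a b e =>
    Subtype.ext (s.eqQ m a.2 b.2 (congrArg Subtype.val e))
  have hK : p.range.comap (QuotientGroup.mk' (center Co0)) = ⊤ := by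
    refine max_co2 _ (fun j hj => ?_) ⟨1, ?_⟩ (k := k) ⟨⟨n, h0, k, h1⟩, ((hp _ k).2 h1).symm⟩ (.inl h2)
    · obtain ⟨a, a1, a2, o⟩ := m.lift_fix hj
      exact ⟨⟨θ a, n0_mem m s (.of_comm a1 a2)⟩,
        ((hp _ j).2 (act_n0 m s (.of_comm a1 a2) o)).symm⟩
    · rw [map_one, QuotientGroup.mk'_apply, ← mul_one negC, co1_neg, QuotientGroup.mk_one]
  have md : MD (⟨θ z, hw⟩ : NN R θ z) (io m s).range (p.comp (Subgroup.subtype _))
      (fun n v => ∃ q, R q v ∧ θ q = n) := by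
    refine ⟨lx m s hw, ?_, fun c => ?_, fun h => ?_, ?_, ?_, fun v => ?_, ?_, ?_,
      fun w => ⟨1, m.md.two w, s.one⟩, ⟨z, m.md.zed, rfl⟩, ?_⟩
    · rw [← m.md.card]; exact (Nat.card_congr (MonoidHom.ofInjective inj).toEquiv).symm
    · obtain ⟨j, rfl⟩ := QuotientGroup.mk_surjective c
      obtain ⟨a, e⟩ : j ∈ p.range.comap (QuotientGroup.mk' (center Co0)) := hK ▸ mem_top j
      exact ⟨⟨a, mem_centralizer_singleton_iff.2 (Subtype.ext a.2.1.eq)⟩, e⟩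
    · rw [mem_io, eq_comm, ← QuotientGroup.mk_one]
      refine (hp h 1).trans ⟨ker m s h.1.2.1, fun ⟨q, hq, e⟩ => ?_⟩
      rw [← e]
      exact act_n0 m s (m.n0_Q hq) (ov_one m.md hq)
    · rintro _ _ ⟨q, r, e⟩
      exact (mem_io m s).2 ⟨q, m.md.mem r, e⟩
    · rintro _ ⟨q, rfl⟩
      obtain ⟨v, r⟩ := m.md.ex q q.2
      exact ⟨v, q, r, rfl⟩
    · obtain ⟨q, r⟩ := m.md.ex' v
      exact ⟨io m s ⟨q, m.md.mem r⟩, q, r, rfl⟩
    · rintro a _ b _ ⟨q, r, e⟩ ⟨q', r', e'⟩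
      exact ⟨q * q', m.md.mul r r', by rw [s.mulQ m (m.md.mem r) (m.md.mem r'), e, e', coe_mul]⟩
    · rintro a _ ⟨q, r, e⟩
      rw [← m.md.one_iff r, Subtype.ext_iff, Subtype.ext_iff, ← e]
      exact or_congr ⟨s.injN (m.n0_Q (m.md.mem r)), fun e => e ▸ s.one⟩
        ⟨s.eqQ m (m.md.mem r) L.mem, fun e => e ▸ rfl⟩
    · rintro h g e a v ⟨q, r, e'⟩
      obtain ⟨q', r', e2⟩ := (hp h g).1 e q v r
      exact ⟨q', r', by rw [e2, e']; rfl⟩
  refine ⟨NN R θ z, hw, n0_mem m s (m.n0_Q m.tQ), _, _, _, md, fun n hn => hn.1, ⟨t, m.lt, rfl⟩, s.nT,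
    fun g g1 g2 => ?_, fun q v r hv hc => ?_, fun y y1 y2 y3 => ?_, fun x => f.pair⟩
  · obtain ⟨a, a1, a2, rfl⟩ := s.surjA m g1 g2
    exact n0_mem m s (.of_comm a1 a2)
  · obtain ⟨e, he⟩ := m.md.ex' (e8 none)
    obtain ⟨c, -, ec⟩ := md.trans r (q' := io m s ⟨e, m.md.mem he⟩) ⟨e, he, rfl⟩
      (.inr ⟨hv, sqNorm_e8 _⟩)
    refine m.excl ((f.fus ((m.comm_t he).2 ?_)).1
      (hc.trans (isConj_iff.2 ⟨c, congrArg Subtype.val ec⟩))) (m.of64 he (sqNorm_e8 _))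
    rw [← uu_add_uP, pp_add]
    exact iff_of_true (pp_self _) (Pp.symm (by rw [Pp, dot_uu_uP]; exact dvd_zero _))
  · obtain ⟨a, ha, -, -, e⟩ := f.q5 y1 y2 y3
    exact (mem_io m s).2 ⟨a, ha, e⟩

end Cfsg.Agent.SBM
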