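import Cfsg.Agent.H15.Monster3
import Cfsg.Agent.H38.MonTwoC
import Cfsg.Agent.STD.IS

/-! Project SBM (a standard subgroup `2.B`): definitions, see notes/SBM.md. -/

set_option autoImplicit false

namespace Cfsg.Agent.SBM

open Subgroup H15

/-- congruence modulo `2Λ` -/
abbrev Cg (x y : leechLattice) : Prop := ∃ w : leechLattice, x = y + (w + w)

/-- orthogonality in `Λ / 2Λ` -/
abbrev Pp (x y : leechLattice) : Prop := (16 : ℤ) ∣ dotInt (x : Vec) (y : Vec)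

/-- a minimal vector with inner product `16` with `uu` -/
def bb : leechLattice := w4 none (some 1) 1 rfl

/-- the model: `z` of class 2B with its extraspecial group `Q`, `t ∈ Q` of class 2A -/
structure Mod {M : Type*} [Group M] (z t : M) (Q : Subgroup M)
    (π : centralizer ({z} : Set M) →* Spor.Co1) (R : M → leechLattice → Prop) : Prop where
  md : MD z Q π R
  lt : R t uu
  nwc : ∃ g, g * z * g⁻¹ ∈ Q ∧ g * z * g⁻¹ ≠ z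
  nc : ¬ IsConj z t
  two : ∀ u, u * u = 1 → u = 1 ∨ IsConj t u ∨ IsConj z u
  s1 : ∀ a b, IsConj t a → IsConj t b → IsConj t (t * a) → IsConj t (t * b) →
    ∃ h, Commute h t ∧ h * a * h⁻¹ = b
  s2 : ∀ a, IsConj t a → IsConj z (t * a) → ∃ h, Commute h t ∧ h * (t * z) * h⁻¹ = a
  odd : ¬ 2 ∣ (centralizer ({z} : Set M)).relIndex (centralizer ({t} : Set M))

/-- the facts on `X = 2.B` with centre `⟨t⟩`, `P = O₂(C(z))`, used to determine `C_G(t)` -/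
structure XF {X : Type*} [Group X] (t z : X) (P : Subgroup X) : Prop where
  z2 : z * z = 1
  z1 : z ≠ 1
  zt : z ≠ t
  nzt : ¬ IsConj z (z * t)
  tP : t ∈ P
  zP : z ∈ P
  Pz : ∀ p ∈ P, Commute p z
  nP : ∀ a, Commute a z → ∀ p ∈ P, a * p * a⁻¹ ∈ P
  cP : ∀ p ∈ P, ∀ q ∈ P, Commute p q ∨ p * q * p⁻¹ = q * z
  sP : ∀ p ∈ P, p * p = 1 ∨ p * p = z
  zc : ∃ p ∈ P, ∃ q ∈ P, p * q * p⁻¹ = q * z
  V : ∀ a, (∀ p ∈ P, Commute a p) → a = 1 ∨ a = t ∨ a = z ∨ a = z * t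
  O2 : ∀ N : Subgroup X, IsPGroup 2 N → (∀ n ∈ N, Commute n z) →
    (∀ a, Commute a z → ∀ n ∈ N, a * n * a⁻¹ ∈ N) → N ≤ P
  odd : ¬ 2 ∣ (centralizer ({z} : Set X)).index
  x1 : ∀ U W : Subgroup X, (∀ u ∈ U, Commute u z) → (∀ u ∈ W, Commute u z) →
    (∀ a, Commute a z → ∀ u ∈ U, a * u * a⁻¹ ∈ U) → (∀ a, Commute a z → ∀ u ∈ W, a * u * a⁻¹ ∈ W) →
    (∀ u ∈ U, ∀ w ∈ W, w * u * w⁻¹ = u ∨ w * u * w⁻¹ = u * t) →
    (∀ a, Commute a z → ∃ u ∈ U, ∃ w ∈ W, a * a = u * w) →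
    (∀ u ∈ U, u = 1 ∨ u = t ∨ u = z ∨ u = z * t) ∨ ∀ u ∈ W, u = 1 ∨ u = t ∨ u = z ∨ u = z * t
  swap : ∃ h x, Commute h z ∧ Commute x z ∧ h * x * h⁻¹ = x * t
  L7 : ∀ a, Commute a z → a ∉ P →
    ∃ p ∈ P, ∃ q ∈ P, ¬ Commute p a ∧ ¬ Commute q a ∧ ¬ Commute (q⁻¹ * p) a
  L6 : ∀ b, Commute b z → b ∉ P → (b * b = 1 ∨ b * b = t) → (∀ x ∈ P, x * b * x⁻¹ ≠ b * z) →
    ∀ c, Commute c z → (∀ f ∈ P, Commute f b → Commute f c) → c ∈ P ∨ c * b⁻¹ ∈ P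
  F : ∀ c, c * c = 1 → c ≠ 1 → c ≠ t → ∀ y, (∀ x, Commute x c → Commute x y) →
    y = 1 ∨ y = t ∨ y = c ∨ y = c * t
  F5 : ∀ b, Commute b z → (b * b = 1 ∨ b * b = t) → ∃ u ∈ P, ∃ w ∈ P, Commute u b ∧ Commute w b ∧
    Commute u w ∧ IsConj z u ∧ IsConj z w ∧ IsConj z (u * w) ∧ IsConj z (z * u) ∧ IsConj z (z * w) ∧
    IsConj z (z * (u * w))

/-- no conjugate of `φ t` lies in a coset `φ w C(φ X)` with `w` conjugate to `z` -/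
def NoZ {X G : Type*} [Group X] [Group G] (t z : X) (φ : X →* G) : Prop :=
  ∀ (g : G) (w : X), IsConj z w → ∀ k ∈ STD.KK φ, g * φ t * g⁻¹ ≠ φ w * k

/-- `a` normalises `⟨t, z⟩` and centralises `z` -/
def N0 {M : Type*} [Group M] (z t a : M) : Prop :=
  Commute a z ∧ (a * t * a⁻¹ = t ∨ a * t * a⁻¹ = t * z)

/-- `θ` embeds `C(t)` and `C(z) ∩ N(⟨t, z⟩)` into `G` -/
structure St {M G : Type*} [Group M] [Group G] (z t : M) (θ : M → G) : Prop where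
  mulH : ∀ {a b}, Commute a t → Commute b t → θ (a * b) = θ a * θ b
  mulN : ∀ {a b}, N0 z t a → N0 z t b → θ (a * b) = θ a * θ b
  injH : ∀ {a}, Commute a t → θ a = 1 → a = 1
  injN : ∀ {a}, N0 z t a → θ a = 1 → a = 1
  surjH : ∀ {g}, Commute g (θ t) → ∃ a, Commute a t ∧ θ a = g
  nT : ¬ IsConj (θ t) (θ z)

/-- fusion of `θ t` -/
structure Fu {M G : Type*} [Group M] [Group G] (z t : M) (Q : Subgroup M) (θ : M → G) : Prop where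
  fus : ∀ {u}, Commute u t → (IsConj (θ t) (θ u) ↔ IsConj t u)
  pair : ∀ {x}, IsConj (θ t) x → IsConj (θ t) (x * θ z) → ∃ g, Commute g (θ z) ∧ g * x * g⁻¹ = θ t
  q5 : ∀ {y}, Commute y (θ t) → IsConj (θ t) y → IsConj (θ t) (y * θ z) →
    ∃ a ∈ Q, Commute a t ∧ IsConj t a ∧ θ a = y

/-- `n` acts on the image of `Q` as `k` on the labels -/
def Act {M G : Type*} [Group G] (R : M → leechLattice → Prop) (θ : M → G) (n : G) (k : Co0) : Prop :=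
  ∀ q v, R q v → ∃ q', R q' (k • v) ∧ θ q' = n * θ q * n⁻¹

/-- the subgroup `N = 2^{1+24}.Co₁` of `C(w)` -/
structure ND {G : Type*} [Group G] (c w : G) (N : Subgroup G) (hw : w ∈ N) (hc : c ∈ N) (Q : Subgroup N)
    (π : centralizer ({⟨w, hw⟩} : Set N) →* Spor.Co1) (R : N → leechLattice → Prop) : Prop where
  md : MD ⟨w, hw⟩ Q π R
  cen : ∀ n ∈ N, Commute n w
  lc : R ⟨c, hc⟩ uu
  nc : ¬ IsConj c w
  RN : ∀ g, Commute g c → Commute g w → g ∈ N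
  four : ∀ q v, R q v → sqNorm (v : Vec) = 64 → ¬ IsConj c (q : G)
  q5 : ∀ y : N, Commute (y : G) c → IsConj c (y : G) → IsConj c (y * w : G) → y ∈ Q
  pair : ∀ x, IsConj c x → IsConj c (x * w) → ∃ g, Commute g w ∧ g * x * g⁻¹ = c

/-- the data of the last step; `Ng u` says that `u` lies over an element with square `-1` -/
structure TopB {G : Type*} [Group G] (c w : G) (Q : Subgroup G) (Ng : G → Prop) : Prop where
  ex : EX Q w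
  card : Nat.card Q = 2 ^ 25
  c2 : c * c = 1
  c1 : c ≠ 1
  cQ : c ∈ Q
  nc : ¬ IsConj c w
  cw : IsConj c (c * w)
  gen : Q ≤ closure {x | x ∈ Q ∧ IsConj c x}
  trans : ∀ x ∈ Q, IsConj c x → ∃ k ∈ normalizer (Q : Set G), k * c * k⁻¹ = x
  RN : ∀ k, k * c = c * k → k * w = w * k → k ∈ normalizer (Q : Set G)
  tri : ∃ z ∈ Q, z * c = c * z ∧ IsConj c z ∧ IsConj c (c * z)
  q11 : ∀ e ∈ Q, ∀ f ∈ Q, ∃ x ∈ Q, IsConj c x ∧ x * e = e * x ∧ x * f = f * x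
  q12 : ∃ y ∈ Q, y * y = 1 ∧ y ≠ 1 ∧ y ≠ w ∧ ¬ IsConj c y
  L1 : ∀ o ∈ normalizer (Q : Set G), IsConj c o → IsConj c (o * w) → o ∈ Q
  L2 : ∀ u ∈ normalizer (Q : Set G), u * u = 1 →
    Ng u ∨ ∃ x ∈ Q, IsConj c x ∧ (u * x * u = x ∨ u * x * u = x * w)
  ngQ : ∀ u, Ng u → ∀ q ∈ Q, Ng (u * q)
  ng3 : ∀ a b d, Ng a → Ng b → Ng d → Ng (a * b) → Ng (a * d) → Ng (b * d) → ¬ Ng (a * b * d)
  ngE : ∀ u, Ng u → ∀ e ∈ Q, (u * e * u⁻¹ = e ∨ u * e * u⁻¹ = e * w) →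
    e * e = 1 ∧ ∃ q ∈ Q, e = q * (u * q⁻¹ * u⁻¹) ∨ e * w = q * (u * q⁻¹ * u⁻¹)
  ngC : ∀ u, Ng u → ∀ a ∈ Q, (∀ q ∈ Q, Commute a (q * (u * q⁻¹ * u⁻¹))) ↔
    u * a * u⁻¹ = a ∨ u * a * u⁻¹ = a * w

end Cfsg.Agent.SBM
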