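import Cfsg.Agent.SBM.Base
import Cfsg.Agent.H38.TenA

set_option autoImplicit false

namespace Cfsg.Agent.SBM

open Subgroup H15 H38.MT
open Cfsg.Agent.H14 (bits enc rows idx)

namespace LatB

/-- `Λ / 2Λ` is non-degenerate -/
theorem unimod {x : leechLattice} (h : ∀ v, Pp x v) : Cg x 0 := by
  obtain ⟨y, w, e, hy⟩ := exists_short' x
  have c : Cg x y := ⟨w, e⟩
  have key : ∀ (g : Co0) (a b : leechLattice), g • y = a → Pp a b := fun g a b e => by
    rw [← e, ← smul_inv_smul g b, pp_smul, ← c.pp]; exact h _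
  rcases hy with rfl | hy | hy | hy
  · exact c
  · obtain ⟨g, e⟩ := trans32 y uP hy sqNorm_uP
    exact absurd (key g _ lOdd e) (by decide +kernel)
  · obtain ⟨g, e⟩ := trans48 y vv hy sqNorm_vv
    exact absurd (key g _ uP e) (by decide +kernel)
  · obtain ⟨g, e⟩ := trans64 y (e8 none) hy (sqNorm_e8 _)
    exact absurd (key g _ lOdd e) (by decide +kernel)

def cs : List ℕ := [10558, 21116, 31554, 36294, 42232, 63108, 72588, 78514, 84464, 104010, 138790, 145176, 150618,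
  168928, 198058, 267634, 280334, 525274, 1050548, 2101096, 4202192, 57274]

def av (j : ℕ) : Vec := if j < 22 then fun i => if i ∈ bits (cs.getD j 0) then 0 else 2 * vOdd i
  else if j = 22 then vOdd + vTwo (bits 13938692) else vOdd

def sv (m : ℕ) : Vec := ∑ j ∈ Finset.range 24, if m.testBit j then av j else 0

theorem cert : DivMem 2 (vOdd - sv 8388608) ∧ (∀ r ∈ rows, ∃ m ∈ [3144556, 1288362, 12582912, 1792547, 13839617,
    14160513, 13500788, 476081, 989473, 2087283, 14251388, 13404636], DivMem 2 (vTwo (bits r) - sv m)) ∧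
    ∀ i, DivMem 2 (vFour i - sv ([2106589, 2199146, 2216489, 2199218, 2213742, 2202610, 2216476, 2198587, 2201578,
      2118491, 2208763, 2214832, 2100866, 2216503, 2199490, 2223557, 2216227, 2220579, 2108025, 2120992, 2127300,
      2128806, 2211035, 2097215].getD (idx i) 0)) := by decide +kernel

theorem key {y : leechLattice} (h : ∀ j < 24, (16 : ℤ) ∣ dotInt (y : Vec) (av j)) : Cg y 0 := by
  let H : AddSubgroup Vec :=
    { carrier := {v | (16 : ℤ) ∣ dotInt (y : Vec) v}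
      zero_mem' := by simp [dotInt]
      add_mem' := fun {a b} ha hb => by rw [Set.mem_setOf_eq, dot_add_right]; exact dvd_add ha hb
      neg_mem' := fun {a} ha => by rw [Set.mem_setOf_eq, dot_neg_right]; exact ha.neg_right }
  have k : ∀ g m, DivMem 2 (g - sv m) → g ∈ H := fun g m d => by
    obtain ⟨z, hz, e⟩ := d.exists
    rw [sub_eq_iff_eq_add.1 e]
    refine add_mem (show (16 : ℤ) ∣ _ by
      have := eight_dvd_dot y.2 hz
      rw [dot_smul_right]; omega) (sum_mem fun j hj => ?_)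
    split_ifs
    exacts [h j (Finset.mem_range.1 hj), zero_mem _]
  exact unimod fun v => leech_le_of_gens H (k _ _ cert.1) (fun r hr => let ⟨_, _, d⟩ := cert.2.1 r hr; k _ _ d)
    (fun i => k _ _ (cert.2.2 i)) v.2

theorem dbl {x y : leechLattice} (h : x + x = y + y) : x = y := Subtype.ext (funext fun i => by
  have := congrFun (congrArg Subtype.val h) i
  simp only [AddSubgroup.coe_add, Pi.add_apply] at this
  omega)

end LatB

open LatB

theorem fixU {x : leechLattice} (h : ∀ k : Co0, k • uu = uu → k • uP = uP → Cg (k • x) x) :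
    Cg x 0 ∨ Cg x uu ∨ Cg x uP ∨ Cg x (uu + uP) := by
  have d : ∀ j < 24, (j < 22 → enc (cs.getD j 0) = cs.getD j 0 ∧ (∀ i ∈ bits (cs.getD j 0), (uu : Vec) i = 0 ∧
      (uP : Vec) i = 0)) ∧ av j ∈ leechLattice ∧ ((16 : ℤ) ∣ dotInt uu (av j) ↔ j ≠ 22) ∧
      ((16 : ℤ) ∣ dotInt uP (av j) ↔ j ≠ 23) := by decide +kernel
  have h1 : ∀ j < 22, (16 : ℤ) ∣ dotInt (x : Vec) (av j) := fun j hj => by
    obtain ⟨e, f⟩ := (d j (by omega)).1 hj
    have c := (h _ ((H26.CoInv.signC_fix (isCw_bits e)).2 fun i hi => (f i hi).1)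
      ((H26.CoInv.signC_fix (isCw_bits e)).2 fun i hi => (f i hi).2)).pp (signC _ (isCw_bits e) • lOdd)
    rw [pp_smul] at c
    have e2 : ((lOdd + signC _ (isCw_bits e) • lOdd : leechLattice) : Vec) = av j := funext fun i => by
      rw [add_sign, av, if_pos hj]
      split_ifs <;> rfl
    rw [← e2, dot_comm]
    exact (pp_add _ _ _).2 ⟨fun a => (c.1 a.symm).symm, fun a => (c.2 a.symm).symm⟩
  have k : ∀ y : leechLattice, (∀ j < 24, (16 : ℤ) ∣ dotInt (y : Vec) (av j) ↔ (16 : ℤ) ∣ dotInt (x : Vec) (av j)) →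
      Cg x y := fun y hy => by
    obtain ⟨w, e⟩ := key (y := x + y) fun j hj => (pp_add x y ⟨_, (d j hj).2.1⟩).2 (hy j hj).symm
    exact ⟨w - y, by rw [eq_sub_of_add_eq e]; abel⟩
  have s : ∀ j < 24, (16 : ℤ) ∣ dotInt ((uu + uP : leechLattice) : Vec) (av j) ↔ (j ≠ 22 ↔ j ≠ 23) := fun j hj =>
    (pp_add uu uP ⟨_, (d j hj).2.1⟩).trans (iff_congr (d j hj).2.2.1 (d j hj).2.2.2)
  have c : ∀ j < 24, j < 22 ∨ j = 22 ∨ j = 23 := by omega
  by_cases a : (16 : ℤ) ∣ dotInt (x : Vec) (av 22) <;> by_cases b : (16 : ℤ) ∣ dotInt (x : Vec) (av 23)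
  · refine .inl (key fun j hj => ?_)
    rcases c j hj with e | rfl | rfl
    exacts [h1 j e, a, b]
  · refine .inr (.inr (.inl (k _ fun j hj => (d j hj).2.2.2.trans ?_)))
    rcases c j hj with e | rfl | rfl
    exacts [iff_of_true (by omega) (h1 j e), by simp [a], by simp [b]]
  · refine .inr (.inl (k _ fun j hj => (d j hj).2.2.1.trans ?_))
    rcases c j hj with e | rfl | rfl
    exacts [iff_of_true (by omega) (h1 j e), by simp [a], by simp [b]]
  · refine .inr (.inr (.inr (k _ fun j hj => (s j hj).trans ?_)))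
    rcases c j hj with e | rfl | rfl
    exacts [iff_of_true (by omega) (h1 j e), by simp [a], by simp [b]]

theorem fixV {x : leechLattice} (h : ∀ k : Co0, k • uu = uu → Cg (k • x) x) : Cg x 0 ∨ Cg x uu := by
  have n : sqNorm (w4 (some 1) (some 2) 1 rfl : Vec) = 32 := by decide +kernel
  obtain ⟨k, k1, k2⟩ := trans_pair_0 uu uP uu _ sqNorm_uu sqNorm_uu sqNorm_uP n dot_uu_uP (by decide +kernel)
  have no : ¬ Cg (w4 (some 1) (some 2) 1 rfl) uP := fun c => absurd (c.pm n sqNorm_uP) (by decide +kernel)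
  rcases fixU (fun k a _ => h k a) with c | c | c | c
  · exact .inl c
  · exact .inr c
  · exact (no (k2 ▸ (c.smul k).symm.trans ((h k k1).trans c))).elim
  · obtain ⟨w, e⟩ := (c.smul k).symm.trans ((h k k1).trans c)
    rw [co0_smul_add, k1, k2, add_assoc, add_right_inj] at e
    exact (no ⟨w, e⟩).elim

theorem dlat {x : leechLattice} (hx : sqNorm (x : Vec) = 64) (hp : Pp x uu) :
    ∃ a b : leechLattice, sqNorm (a : Vec) = 32 ∧ sqNorm (b : Vec) = 32 ∧ dotInt (a : Vec) (uu : Vec) = 0 ∧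
      dotInt (b : Vec) (uu : Vec) = 0 ∧ dotInt (a : Vec) (b : Vec) = 0 ∧ Cg x (a + b) := by
  obtain ⟨g, e⟩ := trans64 x (e8 none) hx (sqNorm_e8 _)
  rw [← pp_smul g, e, Pp, dot_comm, dot_e8] at hp
  have n := (co0_norm g uu).trans sqNorm_uu
  obtain ⟨i, j, ij, hi, hj⟩ := pick2 (x := (g • uu : leechLattice)) (k := 0) (by
    rcases shape32 (g • uu).2 n with s | s | s
    · rw [s.1]; norm_num
    · rw [s.1]; norm_num
    · have := s.abs_cases (by omega) none
      rcases abs_cases (((g • uu : leechLattice) : Vec) none) with c | c <;> omega)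
  rw [abs_eq_zero] at hi hj
  have d : ∀ (e : ℤ) (he : e % 2 = 1), dotInt ((g⁻¹ • w4 i j e he : leechLattice) : Vec) uu = 0 := fun e he => by
    rw [← co0_dot g, smul_inv_smul, dot_comm, dot_w4, hi, hj]; ring
  refine ⟨g⁻¹ • w4 i j 1 rfl, g⁻¹ • w4 i j (-1) rfl, by rw [co0_norm, sqNorm_w4 ij rfl rfl],
    by rw [co0_norm, sqNorm_w4 ij rfl rfl], d _ _, d _ _, ?_, ?_⟩
  · rw [co0_dot, dot_w4, w4_apply, w4_apply, if_pos rfl, if_pos rfl, if_neg ij, if_neg ij.symm]; rfl
  · rw [← co0_smul_add, w4_add, ← inv_smul_smul g x, e]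
    exact Cg.smul ⟨_, e8_congr i none⟩ _

theorem max_co2 (K : Subgroup Co0) (h1 : ∀ k : Co0, k • uu = uu → k ∈ K) (hn : negC ∈ K) {k : Co0} (hk : k ∈ K)
    (hd : dotInt ((k • uu : leechLattice) : Vec) (uu : Vec) = 16 ∨
      dotInt ((k • uu : leechLattice) : Vec) (uu : Vec) = -16) : K = ⊤ := by
  have dn : ∀ x y : leechLattice, dotInt (x : Vec) ((-y : leechLattice) : Vec) = -dotInt (x : Vec) y := fun x y =>
    dot_neg_right _ _
  have nn : ∀ x : leechLattice, sqNorm ((-x : leechLattice) : Vec) = sqNorm (x : Vec) := fun x => sqNorm_neg _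
  let O := fun y : leechLattice => ∃ g ∈ K, g • uu = y
  have sm : ∀ g ∈ K, ∀ y, O y → O (g • y) := fun g hg _ ⟨a, ha, e⟩ => ⟨g * a, mul_mem hg ha, by rw [mul_smul, e]⟩
  have ng : ∀ y, O (-y) → O y := fun y h => by simpa [negC_smul] using sm _ hn _ h
  obtain ⟨y0, o0, n0, d0⟩ : ∃ y, O y ∧ sqNorm (y : Vec) = 32 ∧ dotInt (uu : Vec) y = -16 := by
    have n := (co0_norm k uu).trans sqNorm_uu
    rw [dot_comm] at hd
    rcases hd with e | e
    · exact ⟨-(k • uu), ng _ ⟨k, hk, (neg_neg _).symm⟩, by rw [nn, n], by rw [dn, e]⟩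
    · exact ⟨_, ⟨k, hk, rfl⟩, n, e⟩
  have s0 : ∀ x : leechLattice, sqNorm (x : Vec) = 32 → dotInt (uu : Vec) x = -16 → O x := fun x n d => by
    obtain ⟨s, e1, rfl⟩ := trans_pair_m16 _ _ _ _ sqNorm_uu sqNorm_uu n0 n d0 d
    exact sm s (h1 s e1) _ o0
  have step : ∀ y x : leechLattice, O y → sqNorm (x : Vec) = 32 → dotInt (y : Vec) x = 16 → O x := by
    rintro _ x ⟨g, hg, rfl⟩ n d
    rw [← smul_inv_smul g x] at d ⊢
    exact sm g hg _ (ng _ (s0 _ (by rw [nn, co0_norm, n]) (by rw [dn, ← co0_dot g, d])))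
  have o1 : O uu := ⟨1, one_mem _, one_smul _ _⟩
  have s8 : ∀ x : leechLattice, sqNorm (x : Vec) = 32 → dotInt (uu : Vec) x = -8 → O x := fun x n d => by
    have n' : sqNorm (vTwo (bits 5279)) = 32 := by decide +kernel
    obtain ⟨s, e1, rfl⟩ := trans_pair_m8 _ ⟨_, vTwo_mem (isCw_bits (m := 5279) (by decide +kernel))⟩ _ _ sqNorm_uu
      sqNorm_uu n' n (by decide +kernel) d
    exact sm s (h1 s e1) _ (step (w4 (some 0) (some 1) 1 rfl) _ (s0 _ (by decide +kernel) (by decide +kernel)) n'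
      (by decide +kernel))
  have all : ∀ x : leechLattice, sqNorm (x : Vec) = 32 → O x := fun x n => by
    rcases dot_min sqNorm_uu n with e | e | e
    · exact e ▸ o1
    · exact ng _ (e ▸ o1)
    have := eight_dvd_dot uu.2 x.2
    obtain d | d | d | d | d : dotInt (uu : Vec) x = -16 ∨ dotInt (uu : Vec) x = -8 ∨ dotInt (uu : Vec) x = 0 ∨
      dotInt (uu : Vec) x = 8 ∨ dotInt (uu : Vec) x = 16 := by omega
    · exact s0 x n d
    · exact s8 x n d
    · have n' : sqNorm (w4 (some 1) (some 2) 1 rfl : Vec) = 32 := by decide +kernel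
      obtain ⟨s, e1, rfl⟩ := trans_pair_0 _ _ _ _ sqNorm_uu sqNorm_uu n' n (by decide +kernel) d
      exact sm s (h1 s e1) _ (step bb _ (step _ _ o1 norm_bb dot_uu_bb) n' (by decide +kernel))
    · exact ng _ (s8 _ (by rw [nn, n]) (by rw [dn, d]))
    · exact step _ _ o1 n d
  refine eq_top_iff.2 fun g _ => ?_
  obtain ⟨a, ha, e⟩ := all (g • uu) ((co0_norm g uu).trans sqNorm_uu)
  simpa using mul_mem ha (h1 (a⁻¹ * g) (by rw [mul_smul, ← e, inv_smul_smul]))

theorem ll (Γ : AddSubgroup (leechLattice × leechLattice))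
    (hd : ∀ p ∈ Γ, sqNorm (p.2 : Vec) = sqNorm (p.1 : Vec)) (h2 : ∀ p ∈ Γ, Cg p.1 0 → Cg p.2 0)
    (hs : ∀ x, ∃ y, (x + x, y) ∈ Γ) : ∃ ψ : Co0, ∀ p ∈ Γ, ψ • p.1 = p.2 := by
  have un : ∀ a y y', (a, y) ∈ Γ → (a, y') ∈ Γ → y = y' := fun a y y' h h' => by
    have := hd _ (sub_mem h h')
    rw [Prod.fst_sub, sub_self] at this
    exact sub_eq_zero.1 (Subtype.ext (sqNorm_eq_zero (this.trans (by simp [sqNorm]))))
  have ex : ∀ x, ∃ μ, (x + x, μ + μ) ∈ Γ := fun x => by
    obtain ⟨y, h⟩ := hs x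
    obtain ⟨w, e⟩ := h2 _ h ⟨x, (zero_add _).symm⟩
    exact ⟨w, by rwa [show y = w + w from e.trans (zero_add _)] at h⟩
  choose ψ hψ using ex
  refine ⟨ofHom (AddMonoidHom.mk' ψ fun x y => dbl (un _ _ _ (hψ (x + y)) ?_)) fun x => ?_, fun p hp => ?_⟩
  · simpa only [Prod.mk_add_mk, add_add_add_comm] using add_mem (hψ x) (hψ y)
  · have := hd _ (hψ x)
    simp only [AddSubgroup.coe_add, sqNorm_add, dot_self] at this
    show sqNorm (ψ x : Vec) = _
    omega
  · rw [ofHom_smul]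
    exact dbl (un _ _ _ (hψ p.1) (add_mem hp hp))

end Cfsg.Agent.SBM
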