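import Cfsg.Agent.SBM.LatB

/-! Project SBM: generation of two sublattices of the Leech lattice by minimal vectors (certificates). -/

set_option autoImplicit false

namespace Cfsg.Agent.SBM

open Subgroup H15 H38.MT

namespace Span

/-- signed digits in base 64 -/
def dg (n i : ℕ) : ℤ := ((n >>> (6 * i)) % 64 : ℕ) - 32

/-- the vector with a given code -/
def tv (n : ℕ) : Vec := fun p => dg n (H14.idx p)

/-- a basis of the lattice vectors orthogonal to `uu` and `bb` -/
def Y : List ℕ :=
  [0x820820820820820820820820820820924820, 0x820820820820820820820820820820724820,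
  0x820820820820820820820820820824824820, 0x820820820820820820820820820920824820,
  0x820820820820820820820820824820824820, 0x820820820820820820820820920820824820,
  0x820820820820820820820824820820824820, 0x820820820820820820820920820820824820,
  0x820820820820820820824820820820824820, 0x8617df85d8618617e186185f7df7e18617e1,
  0x820820820820820824820820820820824820, 0x7e18617df8df7df8618618617df8617df85f,
  0x8208208208a079e82082081e7a081e7a2820, 0x820820820820920820820820820820824820,
  0x820820820824820820820820820820824820, 0x7df7e17df7df7e18618617df86185d7e185f,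
  0x81e8208208a282089e8207a081e820822820, 0x8208a08208228228208227a08a08227a0820,
  0x7e17df8637e18618617df7df7df7df7df85f, 0x8208a07a07a082081e8207a08a081e81e820,
  0x81e82081e82081e79e82082079e7a0820820, 0x7e17e185f85f85f7df85f8e17e17e186185f]

/-- coefficients of the generators -/
def C : List ℕ :=
  [0x79e6de89e8638df89c79e7df7de75d926, 0x820820820820820820820820820820820, 0x9228e16a66605d19278257157e68d6c65,
  0x92092072471f6da82682479b7e289d9e0, 0x8df8a07e375f75d8248227dd7e185d921, 0x9619206e669f6168688257587e48daae1,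
  0x8e08e07e379e75e7e482281e7e189f89f, 0x9609617e475d71e7a686381e7e28df85d, 0x81f79f89f8608a27df7df82181e7e07e1,
  0x91f89f7a472071a8257e379b7a185ba22, 0x8607df7e176175a8a17e179b7e181aaa6, 0x8e18e07a375f71b8258237dc7e289d960,
  0x99f9e17e579d7617678a38607e18e2719, 0x9229206a669f6148a78257577e58d9b62, 0xaa6b245ac59b40e8b08aa75382ba58b9c,
  0x9a2a2272671c65c7a98a581d82496085a, 0x9a2a2272671c65c7a98a581d82496081a, 0x9a2a2272671c65c7a98a581d824961819,
  0x9a2a2272671c65c7a98a581d8249a0819, 0x9a2a2272671c65c7a98a581d825960819, 0x9a2a2272671c65c7a98a581d864960819,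
  0x9a2a2272671c65c7a98a581e824960819, 0x9a2a2272671c65c7a98a585d824960819, 0x9a2a2272671c65c7a98a681d824960819,
  0xa9eb228a68997ec5aa9239687de96c2cd, 0x9a2a2272671c65c7aa8a581d824960819, 0xa22aa262a61c51482d8a87977e799ba9c,
  0x9229a27a479c6de7a68a385f8239217db, 0x9a2a2272671c69c7a98a581d824960819, 0x9a2a2272671d65c7a98a581d824960819,
  0x9229a27a479c7207a68a3860863922719, 0x9a0a2282481b7a66a78a38e4820927514, 0xaa2aa26aa61b5167ae8a87987e69dba1b,
  0x9a29a06a669e5d68298267587e491bae0, 0xa22aa272869b5da7ac8a681b7e599e8da, 0x9a2a226a669d5d88298a679a82595d9dd,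
  0xb24c2462c61849873292a81a828aa0853]

/-- minimal vectors of inner product `16` with `uu` -/
def U : List ℕ :=
  [0x82082082082082082082082082082082481c, 0x85f7df85f8617df7df85f85f7df7df7e17dd,
  0x82082082082082082082082082081c82081c, 0x82082082082082082082092082082082081c,
  0x82082082092082082082082082082082081c, 0x82082082482082082082082082082082081c,
  0x92082081c820820820820820820820820820, 0x89e8208208228208a082082082082282289e,
  0x8a08a07a08208208208208208a282081e79e, 0x8a08208228228208208207a08a08207a079e]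

/-- inner products `8`, `0` with `uu`, `bb` -/
def al : Vec := tv 0x8208228208a28a28a082082082082081e81e

/-- inner products `0`, `8` with `uu`, `bb` -/
def be : Vec := tv 0x8a28208228a2822822820820820820820822

/-- a combination of the basis -/
def cb (c : ℕ) : Vec := (Y.zipIdx.map fun p => dg c p.2 • tv p.1).sum

theorem cb_mem {S : AddSubgroup Vec} (h : ∀ y ∈ Y, tv y ∈ S) (c : ℕ) : cb c ∈ S :=
  list_sum_mem fun _ hx => by
    obtain ⟨p, hp, rfl⟩ := List.mem_map.1 hx
    exact zsmul_mem (h _ (List.fst_mem_of_mem_zipIdx hp)) _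

theorem dot_bb (x : Vec) : dotInt x (bb : Vec) = 4 * (x none + x (some 1)) := by rw [bb, dot_w4]; ring

theorem dot_u (x : Vec) : dotInt x (uu : Vec) = 4 * (x none - x (some 0)) := by rw [dot_comm, dot_uu]

/-- the certificate for a generator -/
def Ok (g : Vec) : Prop := (g none - g (some 0)) % 2 = 0 ∧ (g none + g (some 1)) % 2 = 0 ∧
  ∃ c ∈ C, g - ((g none - g (some 0)) / 2) • al - ((g none + g (some 1)) / 2) • be = cb c

scoped instance (g : Vec) : Decidable (Ok g) := inferInstanceAs (Decidable (_ ∧ _ ∧ _))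

theorem ok1 : Ok vOdd := by decide +kernel
theorem ok2 : ∀ r ∈ H14.rows, Ok (vTwo (H14.bits r)) := by decide +kernel
theorem ok3 : ∀ i, Ok (vFour i) := by decide +kernel

theorem key {S : AddSubgroup Vec} (h : ∀ y ∈ Y, tv y ∈ S) (x : leechLattice) :
    ∃ a b : ℤ, dotInt (x : Vec) (uu : Vec) = 8 * a ∧ dotInt (x : Vec) (bb : Vec) = 8 * b ∧
      (x : Vec) - a • al - b • be ∈ S := by
  let H : AddSubgroup Vec :=
    { carrier := {v | ∃ a b : ℤ, dotInt v (uu : Vec) = 8 * a ∧ dotInt v (bb : Vec) = 8 * b ∧ v - a • al - b • be ∈ S}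
      zero_mem' := ⟨0, 0, by simp [dotInt], by simp [dotInt], by simp⟩
      add_mem' := by
        rintro v w ⟨a, b, h1, h2, h3⟩ ⟨a', b', k1, k2, k3⟩
        refine ⟨a + a', b + b', by rw [dot_add_left]; omega, by rw [dot_add_left]; omega, ?_⟩
        convert add_mem h3 k3 using 1
        rw [add_smul, add_smul]; abel
      neg_mem' := by
        rintro v ⟨a, b, h1, h2, h3⟩
        refine ⟨-a, -b, by rw [dot_neg_left]; omega, by rw [dot_neg_left]; omega, ?_⟩
        convert neg_mem h3 using 1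
        rw [neg_smul, neg_smul]; abel }
  have k : ∀ g, Ok g → g ∈ H := fun g ⟨h1, h2, c, _, e⟩ =>
    ⟨_, _, by rw [dot_u]; omega, by rw [dot_bb]; omega, e ▸ cb_mem h c⟩
  exact leech_le_of_gens H (k _ ok1) (fun r hr => k _ (ok2 r hr)) (fun i => k _ (ok3 i)) x.2

theorem okY : ∀ y ∈ Y, tv y ∈ leechLattice ∧ sqNorm (tv y) = 32 ∧ dotInt (tv y) (uu : Vec) = 0 := by
  decide +kernel

/-- the generators in `span` -/
def Gd (u : Vec) : Prop := u ∈ leechLattice ∧ sqNorm u = 32 ∧ dotInt u (uu : Vec) = 16 ∧ 16 ∣ dotInt u (bb : Vec)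

scoped instance (g : Vec) : Decidable (Gd g) := inferInstanceAs (Decidable (_ ∧ _ ∧ _ ∧ _))

theorem okU : ∀ y ∈ Y, ∃ u ∈ U, Gd (tv u) ∧ Gd (tv u - tv y) := by decide +kernel

theorem ok_be : be ∈ leechLattice ∧ sqNorm be = 32 ∧ dotInt be (uu : Vec) = 0 ∧ al ∈ leechLattice := by
  decide +kernel

theorem mem_map' {W : AddSubgroup leechLattice} {x : leechLattice} :
    (x : Vec) ∈ W.map leechLattice.subtype ↔ x ∈ W :=
  AddSubgroup.mem_map_iff_mem (f := leechLattice.subtype) Subtype.val_injective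

end Span

open SBM.Span

theorem span (W : AddSubgroup leechLattice)
    (h : ∀ u : leechLattice, sqNorm (u : Vec) = 32 → dotInt (u : Vec) (uu : Vec) = 16 → Pp u bb → u ∈ W)
    {x : leechLattice} (h1 : Pp x uu) (h2 : Pp x bb) : x ∈ W := by
  have k : ∀ u, Gd u → u ∈ W.map leechLattice.subtype := fun u hu =>
    (mem_map' (x := ⟨u, hu.1⟩)).2 (h _ hu.2.1 hu.2.2.1 hu.2.2.2)
  obtain ⟨a, ha⟩ := h1
  obtain ⟨b, hb⟩ := h2
  let u0 := w4 none (some 1) (-1) rfl
  let u1 := w4 none (some 2) 1 rfl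
  have g0 : Gd u0 ∧ Gd u1 ∧ dotInt (u0 : Vec) (bb : Vec) = 0 ∧ dotInt (u1 : Vec) (bb : Vec) = 16 := by
    decide +kernel
  obtain ⟨a', b', e1, e2, e3⟩ := key (S := W.map leechLattice.subtype) (fun y hy => by
    obtain ⟨u, -, p, q⟩ := okU y hy
    simpa using sub_mem (k _ p) (k _ q)) (x - (a - b) • u0 - b • u1)
  simp only [AddSubgroup.coe_sub, AddSubgroupClass.coe_zsmul, dot_sub_left, dot_smul_left, ha, hb, g0.1.2.2.1,
    g0.2.1.2.2.1, g0.2.2.1, g0.2.2.2] at e1 e2
  obtain rfl : a' = 0 := by omega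
  obtain rfl : b' = 0 := by omega
  rw [zero_smul, zero_smul, sub_zero, sub_zero, mem_map'] at e3
  simpa using add_mem (add_mem e3 (zsmul_mem (mem_map'.1 (k _ g0.2.1)) b))
    (zsmul_mem (mem_map'.1 (k _ g0.1)) (a - b))

theorem gen0 (W : AddSubgroup leechLattice) (h2 : ∀ w, w + w ∈ W)
    (h : ∀ y : leechLattice, sqNorm (y : Vec) = 32 → dotInt (y : Vec) (uu : Vec) = 0 → y ∈ W)
    {x : leechLattice} (hx : Pp x uu) : x ∈ W := by
  obtain ⟨a, ha⟩ := hx
  obtain ⟨a', b, e1, -, e3⟩ := key (S := W.map leechLattice.subtype) (fun y hy =>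
    (mem_map' (x := ⟨_, (okY y hy).1⟩)).2 (h _ (okY y hy).2.1 (okY y hy).2.2)) x
  obtain rfl : a' = a + a := by omega
  have k1 := (mem_map' (W := W)).2 (h2 (a • ⟨al, ok_be.2.2.2⟩))
  have k2 := (mem_map' (W := W)).2 (h ⟨be, ok_be.1⟩ ok_be.2.1 ok_be.2.2.1)
  rw [add_smul] at e3
  simpa [mem_map'] using add_mem (add_mem e3 (zsmul_mem k2 b)) k1

end Cfsg.Agent.SBM
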