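import Cfsg.Agent.SBM.StB

/-! Project SBM: the data of the last step from the subgroup `N`. -/

set_option autoImplicit false

namespace Cfsg.Agent.SBM

open Subgroup H15 H38.MT

namespace TopIn

theorem w4_tri (i j l : GolayPt) (e : ℤ) (he : e % 2 = 1) :
    w4 i j (-1) rfl + w4 j l e he = w4 i l e he := Subtype.ext (funext fun p => by
  simp only [AddSubgroup.coe_add, Pi.add_apply, w4_apply]
  split_ifs <;> omega)

theorem sign_cg {d : Finset GolayPt} (hd : IsCw d) {i j : GolayPt} (h : i ∈ d ↔ j ∈ d) :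
    Cg (signC d hd • w4 i j (-1) rfl) (w4 i j (-1) rfl) := by
  by_cases hi : i ∈ d
  · have : signC d hd • w4 i j (-1) rfl = -w4 i j (-1) rfl := Subtype.ext (funext fun p => by
      rw [signC_apply, AddSubgroup.coe_neg, Pi.neg_apply, w4_apply]
      split_ifs <;> simp_all)
    rw [this]; exact Cg.neg _
  · have : signC d hd • w4 i j (-1) rfl = w4 i j (-1) rfl := Subtype.ext (funext fun p => by
      rw [signC_apply, w4_apply]
      split_ifs <;> simp_all)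
    rw [this]; exact Cg.refl _

/-- an involution of `Co₀` fixes a triangle of minimal vectors modulo `2Λ` -/
theorem tri_fix {k : Co0} (h : k * k = 1) : ∃ a b : leechLattice, sqNorm (a : Vec) = 32 ∧
    sqNorm (b : Vec) = 32 ∧ sqNorm ((a + b : leechLattice) : Vec) = 32 ∧ Cg (k • a) a ∧ Cg (k • b) b := by
  obtain ⟨d, hd, e⟩ := H26.CoInv.isConj_signC h
  obtain ⟨g, e⟩ := isConj_iff.1 e.symm
  obtain ⟨i, j, l, h1, h2, h3, h4, h5⟩ : ∃ i j l : GolayPt, i ≠ j ∧ i ≠ l ∧ j ≠ l ∧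
      (i ∈ d ↔ j ∈ d) ∧ (j ∈ d ↔ l ∈ d) := by
    have := Finset.card_add_card_compl d
    rw [card_pt] at this
    rcases (by omega : 2 < d.card ∨ 2 < dᶜ.card) with c | c <;>
      obtain ⟨i, j, l, a1, a2, a3, b1, b2, b3⟩ := Finset.two_lt_card_iff.1 c
    · exact ⟨i, j, l, b1, b2, b3, iff_of_true a1 a2, iff_of_true a2 a3⟩
    · rw [Finset.mem_compl] at a1 a2 a3
      exact ⟨i, j, l, b1, b2, b3, iff_of_false a1 a2, iff_of_false a2 a3⟩
  refine ⟨g • w4 i j (-1) rfl, g • w4 j l (-1) rfl, ?_, ?_, ?_, ?_, ?_⟩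
  · rw [co0_norm, sqNorm_w4 h1 rfl rfl]
  · rw [co0_norm, sqNorm_w4 h3 rfl rfl]
  · rw [← co0_smul_add, w4_tri, co0_norm, sqNorm_w4 h2 rfl rfl]
  · rw [← e, mul_smul, inv_smul_smul, mul_smul]; exact (sign_cg hd h4).smul g
  · rw [← e, mul_smul, inv_smul_smul, mul_smul]; exact (sign_cg hd h5).smul g

theorem min_pp (a b : leechLattice) : ∃ x : leechLattice, sqNorm (x : Vec) = 32 ∧ Pp x a ∧ Pp x b := by
  classical
  obtain ⟨i, j, hij, e⟩ := Fintype.exists_ne_map_eq_of_card_lt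
    (fun i : GolayPt => (decide (Pp (w4 i none 1 rfl) a), decide (Pp (w4 i none 1 rfl) b)))
    (by rw [card_pt]; decide)
  simp only [Prod.mk.injEq, decide_eq_decide] at e
  have h1 := pp_add (w4 i j (-1) rfl) (w4 j none 1 rfl) a
  have h2 := pp_add (w4 i j (-1) rfl) (w4 j none 1 rfl) b
  rw [w4_tri] at h1 h2
  exact ⟨w4 i j (-1) rfl, sqNorm_w4 hij rfl rfl, by tauto, by tauto⟩

theorem anti {X : Type*} [Group X] {n a b : X} (hn : ∀ x, x * n = n * x) (n2 : n * n = 1)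
    (ha : a * a = n) (hb : b * b = n) (h : a * b * (a * b) = n) : b * a = n * (a * b) := by
  have e : b * a * b = a := mul_left_cancel (a := a) (by rw [ha, ← h]; group)
  calc _ = b * a * (b * b) * (b * b) := by rw [mul_assoc, hb, n2, mul_one]
    _ = b * a * b * b * (b * b) := by group
    _ = _ := by rw [e, hb, hn]

theorem three {X : Type*} [Group X] {n a b d : X} (hn : ∀ x, x * n = n * x) (n2 : n * n = 1)
    (ha : a * a = n) (hb : b * b = n) (hd : d * d = n) (h1 : a * b * (a * b) = n)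
    (h2 : a * d * (a * d) = n) (h3 : b * d * (b * d) = n) : a * b * d * (a * b * d) = 1 := by
  have e1 := anti hn n2 ha hb h1
  have e2 := anti hn n2 ha hd h2
  have e3 := anti hn n2 hb hd h3
  calc _ = a * b * (d * a) * b * d := by group
    _ = a * (b * n) * a * (d * b) * d := by rw [e2]; group
    _ = a * n * (b * a) * n * b * (d * d) := by rw [e3, hn b]; group
    _ = a * (n * n) * a * (b * n) * b * (d * d) := by rw [e1]; group
    _ = a * a * n * (b * b * (d * d)) := by rw [n2, hn b]; group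
    _ = 1 := by rw [ha, hb, hd, n2, mul_one]

section Model

variable {X : Type*} [Group X] [Finite X] {z : X} {Q : Subgroup X}
  {π : centralizer ({z} : Set X) →* Spor.Co1} {R : X → leechLattice → Prop}

omit [Finite X] in
theorem sq_of {u : X} {k k' : Co0} (o : Ov π u k) (o' : Ov π u k') (h : k * k = negC) :
    k' * k' = negC := by
  rcases Ov.eq o o' with rfl | rfl
  · exact h
  · rw [mul_assoc, ← mul_assoc k, negC_comm k, mul_assoc, ← mul_assoc, negC_sq, one_mul, h]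

variable (m : MD z Q π R)
include m

omit [Finite X] in
theorem fix {u q : X} {k : Co0} {v : leechLattice} (o : Ov π u k) (r : R q v) (e : Cg (k • v) v) :
    u * q * u⁻¹ = q ∨ u * q * u⁻¹ = q * z := by
  rw [m.lx.cen q (m.mem r)]
  exact m.uniq r (lab_cg m (o.lab m r) e.symm)

theorem ngE {u e : X} {k : Co0} (o : Ov π u k) (hk : k * k = negC) (he : e ∈ Q)
    (h : u * e * u⁻¹ = e ∨ u * e * u⁻¹ = e * z) :
    e * e = 1 ∧ ∃ q ∈ Q, e = q * (u * q⁻¹ * u⁻¹) ∨ e * z = q * (u * q⁻¹ * u⁻¹) := by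
  obtain ⟨μ, r⟩ := m.ex e he
  have r' : R e (k • μ) := by
    have := o.lab m r
    rcases h with h | h <;> rw [h] at this
    · exact this
    · have := m.zmul this
      rwa [m.lx.cen e he, m.zz] at this
  obtain ⟨ν, hν⟩ := m.congr r r'
  have e1 : μ = -(ν + k • ν) := by
    have := congrArg (k • ·) hν
    simp only [← mul_smul, hk, negC_smul, co0_smul_add] at this
    rw [hν] at this
    refine Subtype.ext (funext fun i => ?_)
    have := congrArg (fun x : leechLattice => (x : Vec) i) this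
    simp only [AddSubgroup.coe_add, AddSubgroup.coe_neg, Pi.add_apply, Pi.neg_apply] at this ⊢
    omega
  have r2 : R e (ν + k • ν) := by simpa [e1, -neg_add_rev] using m.neg r
  obtain ⟨q, hq⟩ := m.ex' ν
  refine ⟨(m.sq_iff r2).2 ?_, q, m.mem hq, ?_⟩
  · obtain ⟨a, ha⟩ := sixteen_dvd_sqNorm ν.2
    rw [AddSubgroup.coe_add, sqNorm_add, co0_norm, dot_zero hk]
    omega
  · rw [m.lx.cen e he]
    exact (m.uniq r2 (m.mul hq (o.lab m (m.inv hq)))).imp Eq.symm Eq.symm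

theorem ngC {u a : X} {k : Co0} (o : Ov π u k) (ha : a ∈ Q) :
    (∀ q ∈ Q, Commute a (q * (u * q⁻¹ * u⁻¹))) ↔ u * a * u⁻¹ = a ∨ u * a * u⁻¹ = a * z := by
  obtain ⟨μ, r⟩ := m.ex a ha
  have r' := m.mul (m.inv r) (o.lab m r)
  have key : ∀ {q x}, R q x → (Commute a (q * (u⁻¹ * q⁻¹ * u⁻¹⁻¹)) ↔ Commute (a⁻¹ * (u * a * u⁻¹)) q) :=
    fun {q x} hq => by
      refine (m.comm_iff r (m.mul hq (o.inv.lab m (m.inv hq)))).trans (Iff.trans ?_ (m.comm_iff r' hq).symm)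
      have h1 := pp_add x (k⁻¹ • x) μ
      have h2 := pp_add μ (k • μ) x
      have h3 := pp_smul k (k⁻¹ • x) μ
      rw [smul_inv_smul] at h3
      have s : ∀ a b, Pp a b ↔ Pp b a := fun _ _ => ⟨Pp.symm, Pp.symm⟩
      change Pp _ _ ↔ Pp _ _
      rw [s μ, h1, h2, ← h3, s μ, s (k • μ)]
  rw [← mul_one a, ← inv_mul_eq_iff_eq_mul, mul_one, ← inv_mul_eq_iff_eq_mul]
  constructor
  · refine fun h => m.lx.large _ fun q hq => ?_
    obtain ⟨x, hx⟩ := m.ex q hq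
    refine (key hx).1 ?_
    have := (h _ (Q.inv_mem (m.mem (o.inv.lab m hx))))
    obtain ⟨y, hy⟩ := m.ex _ (Q.mul_mem hq (m.mem (o.inv.lab m (m.inv hx))))
    refine (m.comm_iff r (m.mul hx (o.inv.lab m (m.inv hx)))).2 ?_
    have e := (m.comm_iff r (m.mul (m.inv (o.inv.lab m hx)) (o.lab m (m.inv (m.inv (o.inv.lab m hx)))))).1 this
    rwa [smul_inv_smul, add_comm] at e
  · intro h q hq
    obtain ⟨x, hx⟩ := m.ex q hq
    have := (key (o.lab m hx)).2 (by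
      rcases h with h | h <;> rw [h]
      · exact Commute.one_left _
      · exact (m.lx.cen _ (m.mem (o.lab m hx))).symm)
    have e := (m.comm_iff r (m.mul (o.lab m hx) (o.inv.lab m (m.inv (o.lab m hx))))).1 this
    rw [inv_smul_smul, add_comm] at e
    exact (m.comm_iff r (m.mul hx (o.lab m (m.inv hx)))).2 e

end Model

variable {G : Type*} [Group G] [Finite G] {c w : G} {N : Subgroup G} {hw : w ∈ N} {hc : c ∈ N}
  {Q : Subgroup N} {π : centralizer ({⟨w, hw⟩} : Set N) →* Spor.Co1} {R : N → leechLattice → Prop}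
  (h : ND c w N hw hc Q π R)
include h

omit [Finite G] in
theorem ov (n : N) : ∃ k, Ov π n k :=
  ov_ex π (mem_centralizer_singleton_iff.2 (Subtype.ext (h.cen n n.2).eq))

omit [Finite G] in
theorem cjQ (n : N) {q : N} (hq : q ∈ Q) : n * q * n⁻¹ ∈ Q :=
  h.md.lx.norm n (Subtype.ext (h.cen n n.2).eq) q hq

omit [Finite G] in
theorem ex : EX (Q.map N.subtype) w := by
  have L := h.md.lx
  refine ⟨⟨_, L.mem, rfl⟩, fun e => L.ne (Subtype.ext e), congrArg Subtype.val L.sq, ?_, ?_, ?_, ?_⟩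
  · rintro _ ⟨a, ha, rfl⟩
    exact congrArg Subtype.val (L.cen a ha)
  · rintro _ ⟨a, ha, rfl⟩ _ ⟨b, hb, rfl⟩
    exact (L.comm a ha b hb).imp (congrArg Subtype.val) (congrArg Subtype.val)
  · rintro _ ⟨a, ha, rfl⟩
    exact (L.sqr a ha).imp (congrArg Subtype.val) (congrArg Subtype.val)
  · rintro _ ⟨a, -, rfl⟩ e
    exact (L.large a fun b hb => Subtype.ext (e _ ⟨b, hb, rfl⟩)).imp (congrArg Subtype.val)
      (congrArg Subtype.val)

omit [Finite G] in
theorem le_norm : N ≤ normalizer (Q.map N.subtype : Set G) := fun g hg => by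
  haveI : Q.Normal := ⟨fun q hq n => cjQ h n hq⟩
  exact le_normalizer_map N.subtype ⟨⟨g, hg⟩, by rw [normalizer_eq_top]; exact mem_top _, rfl⟩

theorem c2 : c * c = 1 := congrArg Subtype.val ((h.md.sq_iff h.lc).2 (by rw [sqNorm_uu]))

omit [Finite G] in
theorem c1 : c ≠ 1 := fun e =>
  (h.md.ne_of_short h.lc (by rw [sqNorm_uu]; omega) (by rw [sqNorm_uu]; omega)).1 (Subtype.ext e)

theorem sq {x : G} (hx : IsConj c x) : x * x = 1 := by
  obtain ⟨k, rfl⟩ := isConj_iff.1 hx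
  rw [conj_mul, c2 h]; simp

omit [Finite G] in
theorem tr32 {x : N} {v : leechLattice} (r : R x v) (hv : sqNorm (v : Vec) = 32) :
    ∃ k : N, (k : G) * c * (k : G)⁻¹ = x :=
  let ⟨k, _, e⟩ := h.md.trans h.lc r (.inl ⟨sqNorm_uu, hv⟩); ⟨k, congrArg Subtype.val e⟩

omit [Finite G] in
theorem of32 {x : N} {v : leechLattice} (r : R x v) (hv : sqNorm (v : Vec) = 32) : IsConj c (x : G) :=
  let ⟨k, e⟩ := tr32 h r hv; isConj_iff.2 ⟨k, e⟩

theorem tr {x : G} (hx : x ∈ Q.map N.subtype) (e : IsConj c x) : ∃ k ∈ N, k * c * k⁻¹ = x := by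
  obtain ⟨x, hx, rfl⟩ := hx
  rcases h.md.short hx with (rfl | rfl) | ⟨v, r, hv | hv | hv⟩
  · exact absurd (by simpa using e) (c1 h)
  · exact absurd e h.nc
  · exact let ⟨k, e⟩ := tr32 h r hv; ⟨k, k.2, e⟩
  · have := (h.md.sq_iff r).1 (Subtype.ext (sq h e))
    omega
  · exact absurd e (h.four x v r hv)

omit [Finite G] in
theorem cw : IsConj c (c * w) := by
  rw [(h.cen c hc).eq]; exact of32 h (h.md.zmul h.lc) sqNorm_uu

theorem norm_le : normalizer (Q.map N.subtype : Set G) ≤ N := fun g hg => by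
  have E := ex h
  have cj : ∀ {k a}, k ∈ normalizer (Q.map N.subtype : Set G) → a ∈ Q.map N.subtype →
      k * a * k⁻¹ ∈ Q.map N.subtype := fun hk ha => (mem_normalizer_iff.1 hk _).1 ha
  have gw : Commute g w := by
    refine mul_inv_eq_iff_eq_mul.1 ((E.center _ (cj hg E.mem) fun b hb => ?_).resolve_left
      fun e => E.ne (conj_eq_one_iff.1 e))
    have := E.cen _ (cj (inv_mem hg) hb)
    calc _ = g * (w * (g⁻¹ * b * g⁻¹⁻¹)) * g⁻¹ := by group
      _ = _ := by rw [← this]; group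
  obtain ⟨k, hk, e⟩ := tr h (cj hg ⟨_, h.md.mem h.lc, rfl⟩) (isConj_iff.2 ⟨g, rfl⟩)
  have := h.RN (k⁻¹ * g) (by
    change _ * _ = _ * _
    calc _ = k⁻¹ * (g * c * g⁻¹) * g := by group
      _ = _ := by erw [← e]; group) ((h.cen k hk).inv_left.mul_left gw)
  simpa using N.mul_mem hk this

theorem gen : Q.map N.subtype ≤ closure {x | x ∈ Q.map N.subtype ∧ IsConj c x} := by
  set K := closure {x | x ∈ Q.map N.subtype ∧ IsConj c x}
  have k32 : ∀ {x v}, R x v → sqNorm (v : Vec) = 32 → (x : G) ∈ K := fun r hv =>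
    subset_closure ⟨⟨_, h.md.mem r, rfl⟩, of32 h r hv⟩
  have hwK : w ∈ K := by
    simpa using K.mul_mem (k32 (h.md.zmul h.lc) sqNorm_uu) (K.inv_mem (k32 h.lc sqNorm_uu))
  let A : AddSubgroup Vec :=
    { carrier := {v | ∃ (x : leechLattice) (q : N), (x : Vec) = v ∧ R q x ∧ (q : G) ∈ K}
      zero_mem' := ⟨0, _, rfl, h.md.zed, hwK⟩
      add_mem' := by
        rintro _ _ ⟨x, q, rfl, r, e⟩ ⟨x', q', rfl, r', e'⟩
        exact ⟨x + x', q * q', rfl, h.md.mul r r', K.mul_mem e e'⟩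
      neg_mem' := by
        rintro _ ⟨x, q, rfl, r, e⟩
        exact ⟨-x, q, rfl, h.md.neg r, e⟩ }
  have hA := leech_le_of_min A fun v hv => let ⟨q, r⟩ := h.md.ex' v; ⟨v, q, rfl, r, k32 r hv⟩
  rintro _ ⟨q, hq, rfl⟩
  obtain ⟨v, r⟩ := h.md.ex q hq
  obtain ⟨x, q', e, r', hK⟩ := hA v.2
  obtain rfl : x = v := Subtype.ext e
  rcases h.md.uniq r' r with rfl | rfl
  exacts [hK, K.mul_mem hwK hK]

omit h in
/-- elements over an automorphism with square `-1` -/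
def Ng (π : centralizer ({⟨w, hw⟩} : Set N) →* Spor.Co1) (u : G) : Prop :=
  ∃ (n : N) (k : Co0), (n : G) = u ∧ Ov π n k ∧ k * k = negC

theorem ngE' {u : G} (hu : Ng π u) {e : G} (he : e ∈ Q.map N.subtype)
    (h' : u * e * u⁻¹ = e ∨ u * e * u⁻¹ = e * w) :
    e * e = 1 ∧ ∃ q ∈ Q.map N.subtype, e = q * (u * q⁻¹ * u⁻¹) ∨ e * w = q * (u * q⁻¹ * u⁻¹) := by
  obtain ⟨n, k, rfl, o, hk⟩ := hu
  obtain ⟨e, he, rfl⟩ := he
  obtain ⟨e1, q, hq, e2⟩ := ngE h.md o hk he (h'.imp Subtype.ext Subtype.ext)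
  exact ⟨congrArg Subtype.val e1, q, ⟨q, hq, rfl⟩, e2.imp (congrArg Subtype.val) (congrArg Subtype.val)⟩

theorem ngC' {u : G} (hu : Ng π u) {a : G} (ha : a ∈ Q.map N.subtype) :
    (∀ q ∈ Q.map N.subtype, Commute a (q * (u * q⁻¹ * u⁻¹))) ↔
      u * a * u⁻¹ = a ∨ u * a * u⁻¹ = a * w := by
  obtain ⟨n, k, rfl, o, -⟩ := hu
  obtain ⟨a, ha, rfl⟩ := ha
  refine Iff.trans ⟨fun e q hq => Subtype.ext (e _ ⟨q, hq, rfl⟩).eq, ?_⟩
    ((ngC h.md o ha).trans (or_congr Subtype.ext_iff Subtype.ext_iff))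
  rintro e _ ⟨q, hq, rfl⟩
  exact congrArg Subtype.val (e q hq).eq

theorem L1neg {o : G} (hN : o ∈ N) (ng : Ng π o) (h1 : IsConj c o) (h2 : IsConj c (o * w)) :
    o ∈ Q.map N.subtype := by
  have E := ex h
  have cj : ∀ {a}, a ∈ Q.map N.subtype → o * a * o⁻¹ ∈ Q.map N.subtype := fun ha =>
    (mem_normalizer_iff.1 (le_norm h hN) _).1 ha
  have ow := h.cen o hN
  have o2 := sq h h1
  have oi : o⁻¹ = o := inv_eq_of_mul_eq_one_right o2
  have wi : w⁻¹ = w := inv_eq_of_mul_eq_one_right E.sq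
  let S : Subgroup G :=
    { carrier := {e | e ∈ Q.map N.subtype ∧ (o * e * o⁻¹ = e ∨ o * e * o⁻¹ = e * w)}
      one_mem' := ⟨one_mem _, .inl (by simp)⟩
      mul_mem' := by
        rintro a b ⟨ha, a'⟩ ⟨hb, b'⟩
        refine ⟨mul_mem ha hb, ?_⟩
        rw [← conj_mul]
        rcases a' with a' | a' <;> rcases b' with b' | b' <;> rw [a', b']
        · exact .inl rfl
        · exact .inr (mul_assoc _ _ _).symm
        · exact .inr (by rw [mul_assoc, ← E.cen b hb, mul_assoc])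
        · exact .inl (by rw [mul_assoc, ← mul_assoc w, ← E.cen b hb, mul_assoc b, E.sq, mul_one])
      inv_mem' := by
        rintro a ⟨ha, a'⟩
        refine ⟨inv_mem ha, ?_⟩
        rw [← conj_inv]
        rcases a' with a' | a' <;> rw [a']
        · exact .inl rfl
        · exact .inr (by rw [E.cen a ha, mul_inv_rev, wi]) }
  have SQ : S ≤ Q.map N.subtype := fun _ e => e.1
  have wS : w ∈ S := ⟨E.mem, .inl (by rw [ow.eq, mul_inv_cancel_right])⟩
  have s2 : ∀ a ∈ S, a * a = 1 := fun a ha => (ngE' h ng ha.1 ha.2).1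
  have ab : ∀ a ∈ S, ∀ b ∈ S, a * b = b * a := fun a ha b hb => by
    rw [← inv_eq_of_mul_eq_one_right (s2 _ (S.mul_mem ha hb)), mul_inv_rev,
      inv_eq_of_mul_eq_one_right (s2 a ha), inv_eq_of_mul_eq_one_right (s2 b hb)]
  have inv : ∀ q, o * (q * (o * q⁻¹ * o⁻¹)) * o⁻¹ = (q * (o * q⁻¹ * o⁻¹))⁻¹ := fun q => by
    calc _ = o * q * o * q⁻¹ * (o * o)⁻¹ := by group
      _ = o * q * o⁻¹ * q⁻¹ := by rw [o2, oi]; group
      _ = _ := by group
  have cS : ∀ q ∈ Q.map N.subtype, q * (o * q⁻¹ * o⁻¹) ∈ S := fun q hq => by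
    have hy := mul_mem hq (cj (inv_mem hq))
    refine ⟨hy, ?_⟩
    rw [inv]
    exact (E.sqr _ hy).imp inv_eq_of_mul_eq_one_right fun e =>
      inv_eq_of_mul_eq_one_right (by rw [← mul_assoc, e, E.sq])
  have CS : Q.map N.subtype ⊓ centralizer (S : Set G) ≤ S := fun a ha =>
    ⟨ha.1, (ngC' h ng ha.1).1 fun q hq => (mem_centralizer_iff.1 ha.2 _ (cS q hq)).symm⟩
  obtain ⟨g, gw, go⟩ := h.pair o h1 h2
  have key : ∀ y, y * y = 1 → (∃ q ∈ Q.map N.subtype, y = q * (o * q⁻¹ * o⁻¹)) →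
      g * y * g⁻¹ ∈ Q.map N.subtype ∧ Commute (g * y * g⁻¹) c := by
    rintro y y2 ⟨q, hq, e⟩
    have yo : Commute y o := (mul_inv_eq_iff_eq_mul.1 (by
      rw [e, inv, ← e, inv_eq_of_mul_eq_one_right y2])).symm
    have c0 : ∀ {a b}, Commute a b → Commute (g * a * g⁻¹) (g * b * g⁻¹) := fun e => by
      rw [Commute, SemiconjBy, conj_mul, conj_mul, e.eq]
    have gw' : g * w * g⁻¹ = w := by rw [gw.eq, mul_inv_cancel_right]
    have e1 : y * o = q * o * q⁻¹ := by rw [e]; group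
    have yw : Commute y w := E.cen y (e ▸ SQ (cS q hq))
    have m1 : g * (y * o) * g⁻¹ ∈ N := h.RN _ (go ▸ c0 (yo.mul_left (Commute.refl o)))
      (gw' ▸ c0 (yw.mul_left ow))
    have m2 := h.q5 ⟨_, m1⟩ (go ▸ c0 (yo.mul_left (Commute.refl o)))
      (h1.trans (isConj_iff.2 ⟨g * q, by change _ = g * (y * o) * g⁻¹; rw [e1]; group⟩))
      (h2.trans (isConj_iff.2 ⟨g * q, by
        have := E.cen _ (inv_mem hq)
        calc _ = g * (q * o * (w * q⁻¹)) * g⁻¹ := by group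
          _ = g * (y * o) * g⁻¹ * (g * w * g⁻¹) := by rw [← this, e1]; group
          _ = _ := by rw [gw']⟩))
    refine ⟨?_, go ▸ c0 yo⟩
    have := mul_mem (mem_map_of_mem N.subtype m2) (inv_mem (mem_map_of_mem N.subtype (h.md.mem h.lc)))
    rwa [coe_subtype, Subtype.coe_mk, Subtype.coe_mk, ← conj_mul, go, mul_inv_cancel_right] at this
  have gw' : g * w * g⁻¹ = w := by rw [gw.eq, mul_inv_cancel_right]
  have key2 : ∀ y ∈ S, g * y * g⁻¹ ∈ Q.map N.subtype ∧ Commute (g * y * g⁻¹) c := fun y hy => by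
    obtain ⟨y2, q, hq, e | e⟩ := ngE' h ng hy.1 hy.2
    · exact key y y2 ⟨q, hq, e⟩
    · obtain ⟨a, b⟩ := key _ (s2 _ (S.mul_mem hy wS)) ⟨q, hq, e⟩
      rw [← conj_mul, gw'] at a b
      exact ⟨by simpa using mul_mem a (inv_mem E.mem),
        by simpa using b.mul_left (h.cen c hc).symm.inv_left⟩
  have F1 : cjs g S ≤ Q.map N.subtype := by
    rintro _ ⟨y, hy, rfl⟩; exact (key2 y hy).1
  have F2 : cjs g S ≤ Q.map N.subtype ⊓ centralizer (cjs g S : Set G) := fun a ha =>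
    mem_inf.2 ⟨F1 ha, mem_centralizer_iff.2 (by
      obtain ⟨a, ha, rfl⟩ := ha
      rintro _ ⟨b, hb, rfl⟩
      rw [← map_mul, ← map_mul, ab b hb a ha])⟩
  have n1 := E.card_cent SQ wS
  have n2 := E.card_cent F1 (gw' ▸ conj_mem_cjs.2 wS)
  rw [card_cjs, ← n1] at n2
  have n3 := Nat.eq_of_mul_eq_mul_right Nat.card_pos n2
  have := eq_of_le_of_card_ge F2 (by rw [n3, card_cjs]; exact card_le_of_le CS)
  have hc' : c ∈ cjs g S := by
    rw [this]
    refine mem_inf.2 ⟨⟨_, h.md.mem h.lc, rfl⟩, mem_centralizer_iff.2 ?_⟩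
    rintro _ ⟨y, hy, rfl⟩
    exact (key2 y hy).2
  rw [← go] at hc'
  exact SQ (conj_mem_cjs.1 hc')

theorem L1 {o : G} (hN : o ∈ N) (h1 : IsConj c o) (h2 : IsConj c (o * w)) : o ∈ Q.map N.subtype := by
  obtain ⟨k, ho⟩ := ov h ⟨o, hN⟩
  rcases ho.sq h.md (Subtype.ext (sq h h1)) with hk | hk
  swap
  · exact L1neg h hN ⟨_, k, rfl, ho, hk⟩ h1 h2
  obtain ⟨x, v, r, hv, e⟩ : ∃ x v, R x v ∧ sqNorm (v : Vec) = 32 ∧
      (⟨o, hN⟩ : N) * x * (⟨o, hN⟩ : N)⁻¹ = x := by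
    obtain ⟨a, b, a1, b1, n, a2, b2⟩ := tri_fix hk
    obtain ⟨x, rx⟩ := h.md.ex' a
    obtain ⟨y, ry⟩ := h.md.ex' b
    rcases fix h.md ho rx a2 with e | e
    · exact ⟨x, a, rx, a1, e⟩
    rcases fix h.md ho ry b2 with e' | e'
    · exact ⟨y, b, ry, b1, e'⟩
    refine ⟨x * y, a + b, h.md.mul rx ry, n, ?_⟩
    rw [← conj_mul, e, e', h.md.lx.cen y (h.md.mem ry), mul_assoc x, h.md.zz]
  obtain ⟨g, hg⟩ := tr32 h r hv
  have e' : o * x = x * o := mul_inv_eq_iff_eq_mul.1 (congrArg Subtype.val e)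
  have := h.q5 (g⁻¹ * ⟨o, hN⟩ * g⁻¹⁻¹) (by
      change _ * _ = _ * _
      calc _ = (g : G)⁻¹ * (o * (g * c * (g : G)⁻¹)) * g := by simp [mul_assoc]
        _ = _ := by rw [hg, e', ← hg]; simp [mul_assoc])
    (h1.trans (isConj_iff.2 ⟨(g : G)⁻¹, rfl⟩))
    (h2.trans (isConj_iff.2 ⟨(g : G)⁻¹, by simp [mul_assoc, (h.cen g g.2).eq]⟩))
  exact ⟨⟨o, hN⟩, by simpa [mul_assoc] using cjQ h g this, rfl⟩

end TopIn

open TopIn

variable {G : Type*} [Group G] [Finite G] {c w : G} {N : Subgroup G} {hw : w ∈ N} {hc : c ∈ N}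
  {Q : Subgroup N} {π : centralizer ({⟨w, hw⟩} : Set N) →* Spor.Co1} {R : N → leechLattice → Prop}

theorem ND.topB (h : ND c w N hw hc Q π R) :
    normalizer (Q.map N.subtype : Set G) ≤ N ∧ ∃ Ng, TopB c w (Q.map N.subtype) Ng := by
  have m := h.md
  refine ⟨norm_le h, Ng π, ex h, by rw [card_map_of_injective N.subtype_injective, m.card], c2 h, c1 h,
    ⟨_, m.mem h.lc, rfl⟩, h.nc, cw h, gen h, fun x hx e => ?_, fun k k1 k2 => le_norm h (h.RN k k1 k2),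
    ?_, ?_, ?_, fun o ho => L1 h (norm_le h ho), fun u hu u2 => ?_, ?_, ?_, fun u hu e => ngE' h hu,
    fun u hu a => ngC' h hu⟩
  · exact let ⟨k, hk, e⟩ := tr h hx e; ⟨k, le_norm h hk, e⟩
  · obtain ⟨x, r⟩ := m.ex' bb
    refine ⟨x, ⟨x, m.mem r, rfl⟩, congrArg Subtype.val ((m.comm_iff r h.lc).2 ?_), of32 h r norm_bb,
      of32 h (m.mul h.lc (m.neg r)) ?_⟩
    · rw [dot_comm, dot_uu_bb]
    · rw [AddSubgroup.coe_add, sqNorm_add, AddSubgroup.coe_neg, dot_neg_right, sqNorm_neg, dot_uu_bb,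
        norm_bb, sqNorm_uu]
      norm_num
  · rintro _ ⟨e, he, rfl⟩ _ ⟨f, hf, rfl⟩
    obtain ⟨a, ra⟩ := m.ex e he
    obtain ⟨b, rb⟩ := m.ex f hf
    obtain ⟨v, hv, v1, v2⟩ := min_pp a b
    obtain ⟨x, r⟩ := m.ex' v
    exact ⟨x, ⟨x, m.mem r, rfl⟩, of32 h r hv, congrArg Subtype.val ((m.comm_iff r ra).2 v1),
      congrArg Subtype.val ((m.comm_iff r rb).2 v2)⟩
  · obtain ⟨x, r⟩ := m.ex' (e8 none)
    have n := m.ne_of_short r (by rw [sqNorm_e8]; omega) (by rw [sqNorm_e8])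
    exact ⟨x, ⟨x, m.mem r, rfl⟩, congrArg Subtype.val ((m.sq_iff r).2 (by rw [sqNorm_e8]; omega)),
      fun e => n.1 (Subtype.ext e), fun e => n.2 (Subtype.ext e), h.four x _ r (sqNorm_e8 _)⟩
  · have hN := norm_le h hu
    obtain ⟨k, ho⟩ := ov h ⟨u, hN⟩
    refine (ho.sq m (Subtype.ext u2)).symm.imp (fun hk => ⟨_, k, rfl, ho, hk⟩) fun hk => ?_
    obtain ⟨a, -, a1, -, -, a2, -⟩ := tri_fix hk
    obtain ⟨x, r⟩ := m.ex' a
    refine ⟨x, ⟨x, m.mem r, rfl⟩, of32 h r a1, ?_⟩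
    have := (fix m ho r a2).imp (congrArg Subtype.val) (congrArg Subtype.val)
    simpa [inv_eq_of_mul_eq_one_right u2] using this
  · rintro _ ⟨n, k, rfl, o, hk⟩ _ ⟨q, hq, rfl⟩
    exact ⟨n * q, k, rfl, by simpa using o.mul (ov_one m hq), hk⟩
  · rintro _ _ _ ⟨a, k1, rfl, o1, e1⟩ ⟨b, k2, rfl, o2, e2⟩ ⟨d, k3, rfl, o3, e3⟩ ⟨n1, j1, f1, p1, g1⟩
      ⟨n2, j2, f2, p2, g2⟩ ⟨n3, j3, f3, p3, g3⟩ ⟨n4, j4, f4, p4, g4⟩
    obtain rfl : n1 = a * b := Subtype.ext f1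
    obtain rfl : n2 = a * d := Subtype.ext f2
    obtain rfl : n3 = b * d := Subtype.ext f3
    obtain rfl : n4 = a * b * d := Subtype.ext f4
    exact negC_ne_one ((sq_of p4 ((o1.mul o2).mul o3) g4).symm.trans (three negC_comm negC_sq e1 e2 e3
      (sq_of p1 (o1.mul o2) g1) (sq_of p2 (o1.mul o3) g2) (sq_of p3 (o2.mul o3) g3)))

end Cfsg.Agent.SBM
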